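import Cfsg.Agent.Lib.Helper17.C3O.Defs
import Cfsg.Agent.Lib.Helper97.C3.STEP

set_option autoImplicit false
set_option linter.unusedSectionVars false
set_option linter.unusedVariables false

namespace Cfsg.Agent.Lib.Helper17.C3O

open QuadraticMap Module Cfsg.Agent.Lib.Helper95 Cfsg.Agent.Lib.Helper97.C3
  Cfsg.Agent.Lib.Helper97.OSub
open Cfsg.Agent.Lib.Helper49 hiding glEquiv glEquiv_apply

variable {F K V : Type*} [Field F] [Fintype F] [Field K] [Fintype K] [Algebra F K]
  [FiniteDimensional F K] [AddCommGroup V] [Module F V] [Module K V] [IsScalarTower F K V]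
  [FiniteDimensional K V]
  {QK : QuadraticForm K V} {κ : K →ₗ[F] F} {Q : QuadraticForm F V} {M : Subgroup (OG Q)}

theorem step_orth (T : TF QK κ Q) (hr : (finrank F K).Prime) (hM : BigO T M) {x : V} (hx0 : x ≠ 0)
    (hx : QK x = 0) (P' : Submodule F V) (horth : ∀ y ∈ P', polar QK x y = 0)
    (hD : kpt F K x ⊓ P' ≠ ⊥) (hP : ¬ kpt F K x ≤ P')
    (h2 : finrank F ↥(kpt F K x ⊓ P') + 2 ≤ finrank F ↥P') :
    ∃ t ∈ M, P'.map t.1.toLinearMap ≠ P' ∧ kpt F K x ⊓ P' < P'.map t.1.toLinearMap ⊓ P' := by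
  obtain ⟨f, hf, h1, h3⟩ := step hr x hx0 P' hD hP h2
  set u : V := -((LinearMap.BilinForm.toDual (polarBilin QK) T.nd).symm f) with hu
  have hu' : ∀ y, polar QK u y = - f y := by
    intro y
    have e : polar QK ((LinearMap.BilinForm.toDual (polarBilin QK) T.nd).symm f) y = f y :=
      LinearMap.BilinForm.apply_toDual_symm_apply (B := polarBilin QK) (hB := T.nd) f y
    rw [hu, polar_neg_left, e]
  have hxu : polar QK x u = 0 := by rw [polar_comm, hu', hf, neg_zero]
  have hR : RPair QK x u := ⟨hx, hxu⟩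
  have hpt : ∀ y ∈ P', (kE T hR).1 y = ktv F f x hf y := by
    intro y hy
    rw [kE_apply, ktv_apply, horth y hy, hu']
    simp
  have hmap : P'.map (kE T hR).1.toLinearMap = P'.map (ktv F f x hf).toLinearMap := by
    ext z
    constructor
    · rintro ⟨y, hy, rfl⟩
      exact ⟨y, hy, (hpt y hy).symm⟩
    · rintro ⟨y, hy, rfl⟩
      exact ⟨y, hy, hpt y hy⟩
  refine ⟨kE T hR, kE_mem T hM hR, ?_, ?_⟩
  · rw [hmap]; exact h1
  · rw [hmap]; exact h3

end Cfsg.Agent.Lib.Helper17.C3O
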