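import Cfsg.Agent.Lib.Helper17.C3O.Defs

set_option autoImplicit false
set_option linter.unusedSectionVars false
set_option linter.unusedVariables false

namespace Cfsg.Agent.Lib.Helper17.C3O

open QuadraticMap Module Cfsg.Agent.Lib.Helper95 Cfsg.Agent.Lib.Helper97.C3
  Cfsg.Agent.Lib.Helper97.OSub
open Cfsg.Agent.Lib.Helper49 hiding glEquiv glEquiv_apply

variable {F K V : Type*} [Field F] [Fintype F] [Field K] [Fintype K] [Algebra F K]
  [FiniteDimensional F K] [AddCommGroup V] [Module F V] [Module K V] [IsScalarTower F K V]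
  [FiniteDimensional K V]
  {QK : QuadraticForm K V} {κ : K →ₗ[F] F} {Q : QuadraticForm F V} {M : Subgroup (OG Q)}

theorem step_mixed (T : TF QK κ Q) (hd : 4 ≤ finrank K V) (hM : BigO T M) {x : V} (hx0 : x ≠ 0)
    (hx : QK x = 0) (P' : Submodule F V) (hfin : finrank F ↥P' = finrank F K)
    (hD : kpt F K x ⊓ P' ≠ ⊥) {y₁ y₂ : V} (hy₁ : y₁ ∈ P') (h1 : polar QK x y₁ = 0)
    (h1' : y₁ ∉ kpt F K x) (hy₂ : y₂ ∈ P') (h2 : polar QK x y₂ ≠ 0) :
    ∃ t ∈ M, P'.map t.1.toLinearMap ≠ P' ∧ kpt F K x ⊓ P' < P'.map t.1.toLinearMap ⊓ P' := by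
  have : FiniteDimensional F V := Module.Finite.trans K V
  set φ : V →ₗ[F] K × K :=
    ((polarBilin QK x).prod (polarBilin QK y₁)).restrictScalars F with hφ
  have hmemW : ∀ u, u ∈ LinearMap.ker φ ↔ polar QK x u = 0 ∧ polar QK y₁ u = 0 := by
    intro u
    rw [LinearMap.mem_ker]
    change ((polar QK x u, polar QK y₁ u) : K × K) = 0 ↔ _
    rw [Prod.mk_eq_zero]
  have hxx : polar QK x x = 0 := polar_self_of_Q hx
  have hR : ∀ u, u ∈ LinearMap.ker φ → RPair QK x u := fun u hu => ⟨hx, ((hmemW u).1 hu).1⟩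
  have key : ∀ u (hu : u ∈ LinearMap.ker φ),
      kpt F K x ⊓ P' < P'.map (kE T (hR u hu)).1.toLinearMap ⊓ P' := by
    intro u hu
    obtain ⟨hu1, hu2⟩ := (hmemW u).1 hu
    rw [SetLike.lt_iff_le_and_exists]
    refine ⟨?_, y₁, ⟨⟨y₁, hy₁, ?_⟩, hy₁⟩, fun h => h1' h.1⟩
    · rintro z ⟨hz1, hz2⟩
      refine ⟨⟨z, hz2, ?_⟩, hz2⟩
      obtain ⟨l, rfl⟩ := mem_kpt.1 hz1
      change (kE T (hR u hu)).1 (l • x) = l • x
      rw [kE_apply, polar_smul_right, polar_smul_right, hxx, polar_comm QK u x, hu1]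
      simp
    · change (kE T (hR u hu)).1 y₁ = y₁
      rw [kE_apply, h1, polar_comm QK u y₁, hu2]
      simp
  by_contra hcon
  push Not at hcon
  have hall : ∀ u (hu : u ∈ LinearMap.ker φ),
      P'.map (kE T (hR u hu)).1.toLinearMap = P' := by
    intro u hu
    by_contra hne
    exact hcon _ (kE_mem T hM _) hne (key u hu)
  have hle : LinearMap.ker φ ≤ P' ⊔ kpt F K x := by
    intro u hu
    obtain ⟨hu1, hu2⟩ := (hmemW u).1 hu
    have hu' : (polar QK x y₂)⁻¹ • u ∈ LinearMap.ker φ := by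
      rw [hmemW, polar_smul_right, polar_smul_right, hu1, hu2]
      simp
    have hmem : (kE T (hR _ hu')).1 y₂ ∈ P' := by
      have : (kE T (hR _ hu')).1 y₂ ∈ P'.map (kE T (hR _ hu')).1.toLinearMap := ⟨y₂, hy₂, rfl⟩
      rwa [hall _ hu'] at this
    rw [kE_apply, smul_smul, mul_inv_cancel₀ h2, one_smul] at hmem
    have h3 := P'.sub_mem hmem hy₂
    set c₁ := polar QK ((polar QK x y₂)⁻¹ • u) y₂ with hc₁
    set c₂ := QK ((polar QK x y₂)⁻¹ • u) * polar QK x y₂ with hc₂
    have h4 : u = (y₂ + u - c₁ • x - c₂ • x - y₂) + (c₁ + c₂) • x := by module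
    rw [h4]
    exact Submodule.add_mem_sup h3 (smul_mem_kpt _ _)
  -- dimension count
  have hV : finrank F K * finrank K V = finrank F V := Module.finrank_mul_finrank F K V
  have hrn := LinearMap.finrank_range_add_finrank_ker φ
  have hrange : finrank F ↥(LinearMap.range φ) ≤ finrank F K + finrank F K := by
    have := Submodule.finrank_le (LinearMap.range φ)
    rwa [Module.finrank_prod] at this
  have hsup := Submodule.finrank_sup_add_finrank_inf_eq P' (kpt F K x)
  rw [hfin, finrank_kpt hx0] at hsup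
  have hinf : 1 ≤ finrank F ↥(P' ⊓ kpt F K x) := by
    rw [inf_comm, Submodule.one_le_finrank_iff]
    exact hD
  have hle' := Submodule.finrank_mono hle
  have hrpos : 0 < finrank F K := Module.finrank_pos
  have h4r : finrank F K * 4 ≤ finrank F K * finrank K V := Nat.mul_le_mul_left _ hd
  omega

end Cfsg.Agent.Lib.Helper17.C3O
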