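import Cfsg.Agent.Lib.Helper17.C3O.Defs
import Cfsg.Agent.Lib.Helper18.C3OGeo

set_option autoImplicit false
set_option linter.unusedSectionVars false
set_option linter.unusedVariables false

namespace Cfsg.Agent.Lib.Helper17.C3O

open QuadraticMap Module Cfsg.Agent.Lib.Helper95 Cfsg.Agent.Lib.Helper97.C3
  Cfsg.Agent.Lib.Helper97.OSub
open Cfsg.Agent.Lib.Helper49 hiding glEquiv glEquiv_apply
open Cfsg.Agent.Lib.Helper18.C3OGeo

variable {F K V : Type*} [Field F] [Fintype F] [Field K] [Fintype K] [Algebra F K]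
  [FiniteDimensional F K] [AddCommGroup V] [Module F V] [Module K V] [IsScalarTower F K V]
  [FiniteDimensional K V]
  {QK : QuadraticForm K V} {κ : K →ₗ[F] F} {Q : QuadraticForm F V} {M : Subgroup (OG Q)}

theorem exists_rot_pair (hnd : (polarBilin QK).Nondegenerate) (h2 : (2 : K) ≠ 0)
    (hK : 3 < Fintype.card K) (hd : 4 ≤ finrank K V) {x y₁ y₂ : V} (hx : QK x = 0)
    (hxy : polar QK x y₁ ≠ 0) (hy₂ : y₂ ∉ Submodule.span K {x, y₁}) :
    ∃ a b, polar QK x a = 0 ∧ polar QK y₁ a = 0 ∧ polar QK x b = 0 ∧ polar QK y₁ b = 0 ∧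
      QK a ≠ 0 ∧ QK b ≠ 0 ∧ polar QK a b ≠ 0 ∧ polar QK a y₂ ≠ 0 ∧ ∀ c : K, b ≠ c • a := by
  classical
  -- the component `m` of `y₂`
  obtain ⟨a₀, c₀, hm1, hm2⟩ := proj2 hx hxy y₂
  set m := y₂ - a₀ • x - c₀ • y₁ with hm
  have hm0 : m ≠ 0 := by
    intro h0
    apply hy₂
    have : y₂ = a₀ • x + c₀ • y₁ := by
      have h3 : y₂ - a₀ • x - c₀ • y₁ = 0 := h0
      rw [sub_sub, sub_eq_zero] at h3
      exact h3
    rw [this, Submodule.mem_span_pair]
    exact ⟨a₀, c₀, rfl⟩
  have hproj : ∀ u, polar QK x u = 0 → polar QK y₁ u = 0 → polar QK u y₂ = polar QK u m := by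
    intro u h1 h3
    rw [hm, polar_sub_right, polar_sub_right, polar_smul_right, polar_smul_right,
      polar_comm QK u x, polar_comm QK u y₁, h1, h3]
    simp
  -- the vector `a`
  obtain ⟨a, ha1, ha2, hqa, ham⟩ : ∃ a, polar QK x a = 0 ∧ polar QK y₁ a = 0 ∧ QK a ≠ 0 ∧
      polar QK a m ≠ 0 := by
    by_cases hqm : QK m = 0
    · obtain ⟨t, ht⟩ := qexists_dual QK hnd hm0
      obtain ⟨a₁, c₁, k1, k2⟩ := proj2 hx hxy t
      set m' := t - a₁ • x - c₁ • y₁ with hm'
      have hmm' : polar QK m m' = 1 := by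
        rw [hm', polar_sub_right, polar_sub_right, polar_smul_right, polar_smul_right,
          polar_comm QK m x, polar_comm QK m y₁, hm1, hm2, ht]
        simp
      by_cases hqm' : QK m' = 0
      · refine ⟨m' + m, ?_, ?_, ?_, ?_⟩
        · rw [polar_add_right, k1, hm1, add_zero]
        · rw [polar_add_right, k2, hm2, add_zero]
        · rw [QuadraticMap.map_add QK, hqm, hqm', polar_comm, hmm']
          simp
        · rw [polar_add_left, polar_self', hqm, polar_comm, hmm']
          simp
      · refine ⟨m', k1, k2, hqm', ?_⟩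
        rw [polar_comm, hmm']
        exact one_ne_zero
    · refine ⟨m, hm1, hm2, hqm, ?_⟩
      rw [polar_self']
      exact mul_ne_zero h2 hqm
  -- a vector `a'` perpendicular to `a`
  obtain ⟨a', ha'N, ha'0, haa'⟩ := Cfsg.Agent.Lib.Helper50.Quad.exists_ker_one
    (pN QK ![x, y₁]) (by simpa using card_pN (QK := QK) ![x, y₁] (j := 1) (by omega))
    (polarBilin QK a)
  rw [mem_pN] at ha'N
  have hxa' : polar QK x a' = 0 := ha'N 0
  have hya' : polar QK y₁ a' = 0 := ha'N 1
  change polar QK a a' = 0 at haa'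
  -- the scalar `s`
  obtain ⟨s, hs0, hs⟩ : ∃ s : K, s ≠ 0 ∧ QK a + s * s * QK a' ≠ 0 := by
    by_cases h1 : QK a + QK a' = 0
    · obtain ⟨s, hs⟩ : ∃ s : K, s ∉ ({0, 1, -1} : Finset K) := by
        by_contra hcon
        push Not at hcon
        have : Fintype.card K ≤ ({0, 1, -1} : Finset K).card := by
          rw [← Finset.card_univ]
          exact Finset.card_le_card (fun s _ => hcon s)
        have h3 : ({0, 1, -1} : Finset K).card ≤ 3 := Finset.card_le_three
        omega
      simp only [Finset.mem_insert, Finset.mem_singleton, not_or] at hs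
      refine ⟨s, hs.1, ?_⟩
      have e : QK a' = - QK a := by linear_combination h1
      rw [e]
      have : QK a + s * s * -QK a = QK a * ((1 - s) * (1 + s)) := by ring
      rw [this]
      refine mul_ne_zero hqa (mul_ne_zero ?_ ?_)
      · intro h
        exact hs.2.1 (by linear_combination -h)
      · intro h
        exact hs.2.2 (by linear_combination h)
    · exact ⟨1, one_ne_zero, by simpa using h1⟩
  refine ⟨a, a + s • a', ha1, ha2, ?_, ?_, hqa, ?_, ?_, ?_, ?_⟩
  · rw [polar_add_right, polar_smul_right, ha1, hxa']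
    simp
  · rw [polar_add_right, polar_smul_right, ha2, hya']
    simp
  · rw [q_add_smul, haa']
    simpa using hs
  · rw [polar_add_right, polar_smul_right, haa', polar_self']
    simpa using mul_ne_zero h2 hqa
  · rw [hproj a ha1 ha2]
    exact ham
  · intro c hc
    have h3 : polar QK a (a + s • a') = polar QK a (c • a) := by rw [hc]
    rw [polar_add_right, polar_smul_right, polar_smul_right, haa', polar_self'] at h3
    simp only [smul_eq_mul, mul_zero, add_zero] at h3
    have hc1 : c = 1 := by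
      have h4 : (2 * QK a) * (c - 1) = 0 := by linear_combination -h3
      rcases mul_eq_zero.1 h4 with h5 | h5
      · exact absurd h5 (mul_ne_zero h2 hqa)
      · linear_combination h5
    rw [hc1, one_smul] at hc
    have h6 : s • a' = 0 := by simpa using hc
    rcases smul_eq_zero.1 h6 with h7 | h7
    · exact hs0 h7
    · exact ha'0 h7

end Cfsg.Agent.Lib.Helper17.C3O
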