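import Cfsg.Agent.Lib.Helper17.C3O.Defs
import Cfsg.Agent.Lib.Helper18.C3OGeo
import Cfsg.Agent.Lib.Helper17.C3O.G3

set_option autoImplicit false
set_option linter.unusedSectionVars false
set_option linter.unusedVariables false

namespace Cfsg.Agent.Lib.Helper17.C3O

open QuadraticMap Module Cfsg.Agent.Lib.Helper95 Cfsg.Agent.Lib.Helper97.C3
  Cfsg.Agent.Lib.Helper97.OSub
open Cfsg.Agent.Lib.Helper49 hiding glEquiv glEquiv_apply
open Cfsg.Agent.Lib.Helper18.C3OGeo

variable {F K V : Type*} [Field F] [Fintype F] [Field K] [Fintype K] [Algebra F K]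
  [FiniteDimensional F K] [AddCommGroup V] [Module F V] [Module K V] [IsScalarTower F K V]
  [FiniteDimensional K V]
  {QK : QuadraticForm K V} {κ : K →ₗ[F] F} {Q : QuadraticForm F V} {M : Subgroup (OG Q)}

theorem b1_rot_ne {a b y : V} (hqa : QK a ≠ 0) (hqb : QK b ≠ 0) (hab : polar QK a b ≠ 0)
    (hay : polar QK a y ≠ 0) (hind : ∀ c : K, b ≠ c • a) :
    ((refl QK a * refl QK b) * (refl QK a * refl QK b)).1 y ≠ y := by
  intro h
  have h1 : reflLin QK a (reflLin QK b (reflLin QK a (reflLin QK b y))) = y := h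
  have h2 : reflLin QK a (reflLin QK b y) = reflLin QK b (reflLin QK a y) := by
    have := congrArg (fun v => reflLin QK b (reflLin QK a v)) h1
    simp only [reflLin_reflLin] at this
    exact this
  simp only [reflLin_apply, polar_sub_right, polar_smul_right, smul_eq_mul] at h2
  have h3 : ((QK a)⁻¹ * (QK b)⁻¹ * polar QK a b) •
      (polar QK b y • a - polar QK a y • b) = 0 := by
    have h4 := sub_eq_zero.2 h2
    rw [← h4, polar_comm QK b a]
    module
  have h5 : polar QK b y • a - polar QK a y • b = 0 := by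
    rcases smul_eq_zero.1 h3 with h6 | h6
    · exact absurd h6 (mul_ne_zero (mul_ne_zero (inv_ne_zero hqa) (inv_ne_zero hqb)) hab)
    · exact h6
  apply hind ((polar QK a y)⁻¹ * polar QK b y)
  rw [mul_smul, sub_eq_zero.1 h5, smul_smul, inv_mul_cancel₀ hay, one_smul]

theorem step_rot (T : TF QK κ Q) (hK : 3 < Fintype.card K) (hd : 4 ≤ finrank K V) (hM : BigO T M)
    {x : V} (hx0 : x ≠ 0) (hx : QK x = 0) (P' : Submodule F V)
    (hb : ∀ y ∈ P', polar QK x y = 0 → y ∈ kpt F K x) {y₁ y₂ : V} (hy₁ : y₁ ∈ P')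
    (h1 : y₁ ∉ kpt F K x) (hy₂ : y₂ ∈ P') (h2 : y₂ ∉ Submodule.span K {x, y₁}) :
    ∃ t ∈ M, P'.map t.1.toLinearMap ≠ P' ∧ kpt F K x ⊓ P' < P'.map t.1.toLinearMap ⊓ P' := by
  have hxy : polar QK x y₁ ≠ 0 := fun h => h1 (hb y₁ hy₁ h)
  obtain ⟨a, b, hxa, hya, hxb, hyb, hqa, hqb, hab, hay, hind⟩ :=
    exists_rot_pair T.nd T.twoK hK hd hx hxy h2
  set e : OG QK := (refl QK a * refl QK b) * (refl QK a * refl QK b) with he
  have hfix : ∀ v, polar QK a v = 0 → polar QK b v = 0 → e.1 v = v := by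
    intro v h3 h4
    change reflLin QK a (reflLin QK b (reflLin QK a (reflLin QK b v))) = v
    rw [reflLin_of_polar_eq_zero QK b v h4, reflLin_of_polar_eq_zero QK a v h3,
      reflLin_of_polar_eq_zero QK b v h4, reflLin_of_polar_eq_zero QK a v h3]
  have hex : e.1 x = x := hfix x (by rw [polar_comm, hxa]) (by rw [polar_comm, hxb])
  have hey : e.1 y₁ = y₁ := hfix y₁ (by rw [polar_comm, hya]) (by rw [polar_comm, hyb])
  have hne : e.1 y₂ ≠ y₂ := b1_rot_ne hqa hqb hab hay hind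
  have hsM : T.res e ∈ M := hM _
  refine ⟨T.res e, hsM, ?_, ?_⟩
  · intro hP
    have hm : e.1 y₂ ∈ P' := by
      rw [← hP]
      exact ⟨y₂, hy₂, rfl⟩
    have hd' : e.1 y₂ - y₂ ∈ P' := P'.sub_mem hm hy₂
    have k1 : polar QK x (e.1 y₂ - y₂) = 0 := by
      rw [polar_sub_right]
      nth_rewrite 1 [← hex]
      rw [OG_polar, sub_self]
    have k2 : polar QK y₁ (e.1 y₂ - y₂) = 0 := by
      rw [polar_sub_right]
      nth_rewrite 1 [← hey]
      rw [OG_polar, sub_self]
    obtain ⟨c, hc⟩ := mem_kpt.1 (hb _ hd' k1)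
    rw [← hc, polar_smul_right, polar_comm QK y₁ x, smul_eq_mul] at k2
    rcases mul_eq_zero.1 k2 with h3 | h3
    · rw [h3, zero_smul] at hc
      exact hne (sub_eq_zero.1 hc.symm)
    · exact hxy h3
  · refine lt_of_le_of_ne ?_ ?_
    · intro v hv
      obtain ⟨hvk, hvP⟩ := Submodule.mem_inf.1 hv
      refine Submodule.mem_inf.2 ⟨?_, hvP⟩
      obtain ⟨l, rfl⟩ := mem_kpt.1 hvk
      refine ⟨l • x, hvP, ?_⟩
      change e.1 (l • x) = l • x
      rw [map_smul, hex]
    · intro h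
      have : y₁ ∈ P'.map (T.res e).1.toLinearMap ⊓ P' :=
        Submodule.mem_inf.2 ⟨⟨y₁, hy₁, hey⟩, hy₁⟩
      rw [← h] at this
      exact h1 (Submodule.mem_inf.1 this).1

end Cfsg.Agent.Lib.Helper17.C3O
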