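import Cfsg.Agent.Lib.Helper17.C3O.Defs
import Cfsg.Agent.Lib.Helper18.C3OGeo

set_option autoImplicit false
set_option linter.unusedSectionVars false
set_option linter.unusedVariables false

namespace Cfsg.Agent.Lib.Helper17.C3O

open QuadraticMap Module Cfsg.Agent.Lib.Helper95 Cfsg.Agent.Lib.Helper97.C3
  Cfsg.Agent.Lib.Helper97.OSub
open Cfsg.Agent.Lib.Helper49 hiding glEquiv glEquiv_apply
open Cfsg.Agent.Lib.Helper18.C3OGeo

variable {F K V : Type*} [Field F] [Fintype F] [Field K] [Fintype K] [Algebra F K]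
  [FiniteDimensional F K] [AddCommGroup V] [Module F V] [Module K V] [IsScalarTower F K V]
  [FiniteDimensional K V]
  {QK : QuadraticForm K V} {κ : K →ₗ[F] F} {Q : QuadraticForm F V} {M : Subgroup (OG Q)}

theorem exists_perp_hyp_norm (hnd : (polarBilin QK).Nondegenerate) (hd : 4 ≤ finrank K V)
    {x y : V} (hx : QK x = 0) (hxy : polar QK x y ≠ 0) (c : K) :
    ∃ u, QK u = c ∧ polar QK x u = 0 ∧ polar QK y u = 0 := by
  have hcard : Fintype.card K < Nat.card (pN QK ![x, y]) := by
    have := card_pN (QK := QK) ![x, y] (j := 1) (by omega)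
    simpa using this
  by_cases han : ∀ e ∈ pN QK ![x, y], e ≠ 0 → QK e ≠ 0
  · obtain ⟨w, hw, hwc⟩ := Cfsg.Agent.Lib.Helper50.Quad.exists_value (Q := QK) _ hcard han c
    rw [mem_pN] at hw
    exact ⟨w, hwc, hw 0, hw 1⟩
  · push Not at han
    obtain ⟨e, he, he0, hqe⟩ := han
    rw [mem_pN] at he
    have hxe : polar QK x e = 0 := he 0
    have hye : polar QK y e = 0 := he 1
    obtain ⟨t, ht⟩ := qexists_dual QK hnd he0
    obtain ⟨a, b, h1, h2⟩ := proj2 hx hxy t
    set e' := t - a • x - b • y with he'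
    have h3 : polar QK e e' = 1 := by
      rw [he', polar_sub_right, polar_sub_right, polar_smul_right, polar_smul_right,
        polar_comm QK e x, polar_comm QK e y, hxe, hye, ht]
      simp
    refine ⟨e' + (c - QK e') • e, ?_, ?_, ?_⟩
    · rw [q_add_smul, hqe, polar_comm, h3]
      ring
    · rw [polar_add_right, polar_smul_right, h1, hxe]
      simp
    · rw [polar_add_right, polar_smul_right, h2, hye]
      simp

end Cfsg.Agent.Lib.Helper17.C3O
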