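import Cfsg.Agent.Lib.Helper17.C3O.Defs
import Cfsg.Agent.Lib.Helper18.C3OGeo
import Cfsg.Agent.Lib.Helper17.C3O.G1

set_option autoImplicit false
set_option linter.unusedSectionVars false
set_option linter.unusedVariables false

namespace Cfsg.Agent.Lib.Helper17.C3O

open QuadraticMap Module Cfsg.Agent.Lib.Helper95 Cfsg.Agent.Lib.Helper97.C3
  Cfsg.Agent.Lib.Helper97.OSub
open Cfsg.Agent.Lib.Helper49 hiding glEquiv glEquiv_apply
open Cfsg.Agent.Lib.Helper18.C3OGeo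

variable {F K V : Type*} [Field F] [Fintype F] [Field K] [Fintype K] [Algebra F K]
  [FiniteDimensional F K] [AddCommGroup V] [Module F V] [Module K V] [IsScalarTower F K V]
  [FiniteDimensional K V]
  {QK : QuadraticForm K V} {κ : K →ₗ[F] F} {Q : QuadraticForm F V} {M : Subgroup (OG Q)}

theorem step_hyp (T : TF QK κ Q) (hd : 4 ≤ finrank K V) (hM : BigO T M) {x : V} (hx0 : x ≠ 0)
    (hx : QK x = 0) (P' : Submodule F V) (hts : ∀ y ∈ P', ∀ z ∈ P', polar Q y z = 0)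
    (hD : kpt F K x ⊓ P' ≠ ⊥) {y₁ : V} (hy₁ : y₁ ∈ P') (h1 : polar QK x y₁ ≠ 0)
    (hH : ∀ y ∈ P', y ∈ Submodule.span K {x, y₁}) :
    ∃ t ∈ M, P'.map t.1.toLinearMap ≠ P' ∧ kpt F K x ⊓ P' ≤ P'.map t.1.toLinearMap ⊓ P' ∧
      ∃ y ∈ P'.map t.1.toLinearMap, y ∉ P' ∧ ∀ z ∈ P', polar Q y z = 0 := by
  obtain ⟨d, hd1, hd0⟩ := (Submodule.ne_bot_iff _).1 hD
  obtain ⟨hdk, hdP⟩ := Submodule.mem_inf.1 hd1
  obtain ⟨δ, rfl⟩ := mem_kpt.1 hdk
  have hδ : δ ≠ 0 := by
    rintro rfl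
    exact hd0 (zero_smul _ _)
  obtain ⟨u, hqu, hxu, hyu⟩ := exists_perp_hyp_norm T.nd hd hx h1 (δ / polar QK x y₁)
  have hR : RPair QK x u := ⟨hx, hxu⟩
  have hfix : ∀ l : K, (kE T hR).1 (l • x) = l • x := by
    intro l
    rw [kE_apply, polar_smul_right, polar_smul_right, polar_self', hx, polar_comm QK u x, hxu]
    simp
  have hty : (kE T hR).1 y₁ = y₁ + polar QK x y₁ • u - δ • x := by
    rw [kE_apply, polar_comm QK u y₁, hyu, hqu, div_mul_cancel₀ _ h1]
    simp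
  have huz : ∀ z ∈ P', polar QK u z = 0 := by
    intro z hz
    obtain ⟨α, γ, rfl⟩ := Submodule.mem_span_pair.1 (hH z hz)
    rw [polar_add_right, polar_smul_right, polar_smul_right, polar_comm QK u x, hxu,
      polar_comm QK u y₁, hyu]
    simp
  have hyn : (kE T hR).1 y₁ ∉ P' := by
    intro hmem
    have h2 : polar QK u ((kE T hR).1 y₁) = 0 := huz _ hmem
    rw [hty, polar_sub_right, polar_add_right, polar_smul_right, polar_smul_right,
      polar_comm QK u y₁, hyu, polar_comm QK u x, hxu, polar_self', hqu] at h2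
    simp only [smul_eq_mul, mul_zero, sub_zero, zero_add] at h2
    have h3 : (2 : K) * δ = 0 := by
      have : polar QK x y₁ * (2 * (δ / polar QK x y₁)) = 2 * δ := by field_simp
      rw [← this, h2]
    rcases mul_eq_zero.1 h3 with h4 | h4
    · exact T.twoK h4
    · exact hδ h4
  have hym : (kE T hR).1 y₁ ∈ P'.map (kE T hR).1.toLinearMap :=
    Submodule.mem_map_of_mem hy₁
  refine ⟨kE T hR, kE_mem T hM hR, ?_, ?_, (kE T hR).1 y₁, hym, hyn, ?_⟩
  · intro h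
    rw [h] at hym
    exact hyn hym
  · intro v hv
    obtain ⟨hvk, hvP⟩ := Submodule.mem_inf.1 hv
    refine Submodule.mem_inf.2 ⟨?_, hvP⟩
    obtain ⟨l, rfl⟩ := mem_kpt.1 hvk
    exact ⟨l • x, hvP, hfix l⟩
  · intro z hz
    rw [hty, polar_sub_left, polar_add_left, hts _ hy₁ _ hz, hts _ hdP _ hz, T.polar_eq,
      polar_smul_left, huz z hz]
    simp

end Cfsg.Agent.Lib.Helper17.C3O
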