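import Cfsg.Agent.Lib.Helper17.C3O.Defs

/-!
Ladder C3O, rung BATV: all adapted transvections on a totally singular `K`-line give `PP`.
-/

set_option autoImplicit false
set_option linter.unusedSectionVars false
set_option linter.unusedVariables false

namespace Cfsg.Agent.Lib.Helper17.C3O

open QuadraticMap Module Cfsg.Agent.Lib.Helper95 Cfsg.Agent.Lib.Helper97.C3
  Cfsg.Agent.Lib.Helper97.OSub
open Cfsg.Agent.Lib.Helper49 hiding glEquiv glEquiv_apply

variable {F K V : Type*} [Field F] [Fintype F] [Field K] [Fintype K] [Algebra F K]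
  [FiniteDimensional F K] [AddCommGroup V] [Module F V] [Module K V] [IsScalarTower F K V]
  [FiniteDimensional K V]
  {QK : QuadraticForm K V} {κ : K →ₗ[F] F} {Q : QuadraticForm F V} {M : Subgroup (OG Q)}

theorem PP_of_allATV (T : TF QK κ Q) (hM : BigO T M) {x w : V} (hx : QK x = 0) (hw : QK w = 0)
    (hxw : polar QK x w = 0) (hind : w ∉ Submodule.span K {x})
    (h : AllATV K (XL M (Submodule.span K {x, w}))) : PP K M x := by
  intro a b
  have hxL : x ∈ Submodule.span K {x, w} := Submodule.subset_span (by simp)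
  have hwL : w ∈ Submodule.span K {x, w} := Submodule.subset_span (by simp)
  obtain ⟨f0, hf0x, hf0w⟩ := exists_fun_one (K := K) hind
  have hφ : (f0 ∘ₗ (Submodule.span K {x, w}).subtype)
      (b • (⟨x, hxL⟩ : Submodule.span K {x, w})) = 0 := by simp [hf0x]
  obtain ⟨y, hyM, hy⟩ := h κ (f0 ∘ₗ (Submodule.span K {x, w}).subtype) _ hφ
  have hyx : ∀ l : K, y.1 (l • x) = l • x := by
    intro l
    have := hy (l • ⟨x, hxL⟩)
    simpa [atv_apply, hf0x] using this
  have hyw : ∀ η : K, y.1 (η • w) = η • w + κ η • (b • x) := by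
    intro η
    have := hy (η • ⟨w, hwL⟩)
    simpa [atv_apply, hf0w] using this
  have hxx : polar QK x x = 0 := polar_self_of_Q hx
  have hwx : polar QK w x = 0 := by rw [polar_comm]; exact hxw
  have hp : RPair QK x (a • w) := ⟨hx, by rw [polar_smul_right, hxw, smul_zero]⟩
  have hcM : kE T hp ∈ M := kE_mem T hM hp
  have hc : ∀ v, (kE T hp).1 v = v + (polar QK x v * a) • w - (a * polar QK w v) • x := by
    intro v
    rw [kE_apply, QuadraticMap.map_smul, hw, polar_smul_left]
    simp [smul_smul]
  have hcx : ∀ l : K, (kE T hp).1 (l • x) = l • x := by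
    intro l
    rw [hc]
    simp [polar_smul_right, hxx, hwx]
  have hβx : ∀ v, polar QK x (y.1 v) = polar QK x v := by
    intro v
    apply T.eq_of_kappa
    intro l
    have := OG_polar Q y (l • x) v
    rw [hyx, T.polar_eq, T.polar_eq, polar_smul_left, polar_smul_left] at this
    exact this
  have hκ : ∀ (η : K) (r : F), κ (η * algebraMap F K r) = κ η * r := by
    intro η r
    rw [mul_comm η, ← Algebra.smul_def, map_smul, smul_eq_mul, mul_comm]
  have hβw : ∀ v, polar QK w (y.1 v) = polar QK w v - algebraMap F K (polar Q (b • x) v) := by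
    intro v
    apply T.eq_of_kappa
    intro η
    have h1 := OG_polar Q y (η • w - κ η • (b • x)) v
    have h2 : y.1 (η • w - κ η • (b • x)) = η • w := by
      rw [map_sub, hyw, LinearEquiv.map_smul y.1 (κ η) (b • x), hyx]; abel
    rw [h2, polar_sub_left, polar_smul_left Q (κ η), T.polar_eq (η • w), T.polar_eq (η • w),
      polar_smul_left, polar_smul_left] at h1
    rw [mul_sub, map_sub, hκ]
    exact h1
  have hs : SPair Q (a • x) (b • x) := by
    refine ⟨?_, ?_, ?_⟩
    · rw [T.hQ, QuadraticMap.map_smul, hx]; simp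
    · rw [T.hQ, QuadraticMap.map_smul, hx]; simp
    · rw [T.polar_eq, polar_smul_left, polar_smul_right, hxx]; simp
  refine ⟨hs, ?_⟩
  have hfix : ∀ (l : K) (v : V), polar Q (l • x) ((kE T hp).1 (y.1 v)) = polar Q (l • x) v := by
    intro l v
    have h1 := OG_polar Q (kE T hp) (l • x) (y.1 v)
    have h2 := OG_polar Q y (l • x) v
    rw [hcx] at h1
    rw [hyx] at h2
    rw [h1, h2]
  have key : sg hs * (kE T hp * y) = y * kE T hp := by
    apply OG_ext
    intro v
    simp only [Subgroup.coe_mul, LinearEquiv.mul_apply, sg_apply]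
    rw [hfix, hfix, hc (y.1 v), hc v, hβx, hβw, map_sub, map_add, hyw, hyx]
    have e1 : polar Q (a • x) v = κ (polar QK x v * a) := by
      rw [T.polar_eq, polar_smul_left, smul_eq_mul, mul_comm]
    rw [e1]
    simp only [← algebraMap_smul K (κ (polar QK x v * a)), ← algebraMap_smul K (polar Q (b • x) v)]
    module
  have e : sg hs = y * kE T hp * (kE T hp * y)⁻¹ := by rw [← key]; group
  rw [e]
  exact M.mul_mem (M.mul_mem hyM hcM) (M.inv_mem (M.mul_mem hcM hyM))

end Cfsg.Agent.Lib.Helper17.C3O
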