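import Cfsg.Agent.Lib.Helper17.C3O.Defs

/-!
Ladder C3O, rung BKTV: the `K`-transvections of a totally singular `K`-subspace are induced by `M`.
-/

set_option autoImplicit false
set_option linter.unusedSectionVars false
set_option linter.unusedVariables false

namespace Cfsg.Agent.Lib.Helper17.C3O

open QuadraticMap Module Cfsg.Agent.Lib.Helper95 Cfsg.Agent.Lib.Helper97.C3
  Cfsg.Agent.Lib.Helper97.OSub
open Cfsg.Agent.Lib.Helper49 hiding glEquiv glEquiv_apply

variable {F K V : Type*} [Field F] [Fintype F] [Field K] [Fintype K] [Algebra F K]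
  [FiniteDimensional F K] [AddCommGroup V] [Module F V] [Module K V] [IsScalarTower F K V]
  [FiniteDimensional K V]
  {QK : QuadraticForm K V} {κ : K →ₗ[F] F} {Q : QuadraticForm F V} {M : Subgroup (OG Q)}

/-- every `K`-functional on a `K`-subspace is represented by a vector -/
theorem bktv_repr (hnd : (polarBilin QK).Nondegenerate) (L : Submodule K V) (f : L →ₗ[K] K) :
    ∃ v : V, ∀ l : L, polar QK v (l : V) = f l := by
  obtain ⟨g, hg⟩ := LinearMap.exists_extend f
  refine ⟨(LinearMap.BilinForm.toDual (polarBilin QK) hnd).symm g, fun l => ?_⟩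
  have e : polar QK ((LinearMap.BilinForm.toDual (polarBilin QK) hnd).symm g) (l : V) = g l :=
    LinearMap.BilinForm.apply_toDual_symm_apply (B := polarBilin QK) (hB := hnd) g l
  rw [e, ← hg]
  rfl

/-- on a totally singular subspace the polar form vanishes -/
theorem bktv_polar_zero (L : Submodule K V) (hL : ∀ l ∈ L, QK l = 0) {a b : V} (ha : a ∈ L)
    (hb : b ∈ L) : polar QK a b = 0 := by
  rw [polar, hL _ (L.add_mem ha hb), hL _ ha, hL _ hb]
  simp

theorem ktv_mem_XL (T : TF QK κ Q) (hM : BigO T M) (L : Submodule K V) (hL : ∀ l ∈ L, QK l = 0)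
    (f : L →ₗ[K] K) (c : L) (h : f c = 0) : ktv F f c h ∈ XL M L := by
  obtain ⟨v, hv⟩ := bktv_repr T.nd L (-f)
  have hp : RPair QK (c : V) v := ⟨hL _ c.2, by
    rw [polar_comm, hv c]
    simp [h]⟩
  refine ⟨kE T hp, kE_mem T hM hp, fun l => ?_⟩
  rw [kE_apply, bktv_polar_zero L hL c.2 l.2, hv l]
  simp

end Cfsg.Agent.Lib.Helper17.C3O
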