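import Cfsg.Agent.Lib.Helper17.C3O.Defs

set_option autoImplicit false
set_option linter.unusedSectionVars false
set_option linter.unusedVariables false
set_option linter.unusedSimpArgs false

namespace Cfsg.Agent.Lib.Helper17.C3O

open QuadraticMap Module Cfsg.Agent.Lib.Helper95 Cfsg.Agent.Lib.Helper97.C3
  Cfsg.Agent.Lib.Helper97.OSub
open Cfsg.Agent.Lib.Helper49 hiding glEquiv glEquiv_apply

variable {F K V : Type*} [Field F] [Fintype F] [Field K] [Fintype K] [Algebra F K]
  [FiniteDimensional F K] [AddCommGroup V] [Module F V] [Module K V] [IsScalarTower F K V]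
  [FiniteDimensional K V]
  {QK : QuadraticForm K V} {κ : K →ₗ[F] F} {Q : QuadraticForm F V} {M : Subgroup (OG Q)}

theorem exists_partner (hnd : (polarBilin QK).Nondegenerate) {x : V} (hx0 : x ≠ 0) (hx : QK x = 0) :
    ∃ xs, QK xs = 0 ∧ polar QK x xs = 1 := by
  obtain ⟨y, hy⟩ := qexists_dual QK hnd hx0
  refine ⟨y - QK y • x, ?_, ?_⟩
  · rw [Q_sub_smul, hx, hy]; ring
  · rw [polar_sub_right, polar_smul_right, hy, polar_self_of_Q hx]; simp

theorem dl_apply {x xs : V} (hx : QK x = 0) (hxs : QK xs = 0) (h1 : polar QK x xs = 1) {ν : K}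
    (hν : ν ≠ 0) (y : V) :
    (dl QK x xs ν).1 y = y + ((ν - 1) * polar QK xs y) • x + ((ν⁻¹ - 1) * polar QK x y) • xs := by
  have h1' : polar QK xs x = 1 := by rw [polar_comm]; exact h1
  have hxx : polar QK x x = 0 := polar_self_of_Q hx
  have hss : polar QK xs xs = 0 := polar_self_of_Q hxs
  have qa : QK (x - xs) = -1 := by
    have := Q_sub_smul QK x xs 1
    rw [one_smul] at this
    rw [this, hx, hxs, h1']; ring
  have qb : QK (x - ν • xs) = -ν := by
    rw [Q_sub_smul, hx, hxs, h1']; ring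
  rw [dl, Subgroup.coe_mul, LinearEquiv.mul_apply, refl_coe_apply, refl_coe_apply,
    reflLin_apply QK (x - ν • xs), reflLin_apply, qa, qb]
  simp only [polar_sub_left, polar_sub_right, polar_smul_left, polar_smul_right, hxx, hss, h1, h1',
    smul_eq_mul]
  have e1 : (-ν)⁻¹ = -ν⁻¹ := by rw [inv_neg]
  have e2 : (-1 : K)⁻¹ = -1 := by norm_num
  rw [e1, e2]
  have hk : ν⁻¹ * ν = 1 := inv_mul_cancel₀ hν
  have hk' : ν * ν⁻¹ = 1 := mul_inv_cancel₀ hν
  set p := polar QK x y
  set p' := polar QK xs y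
  linear_combination (norm := module) hk • ((ν * p' - p) • x - p' • xs)

theorem dl_sq_mem (T : TF QK κ Q) (hM : BigO T M) {x xs : V} (hx : QK x = 0) (hxs : QK xs = 0)
    (h1 : polar QK x xs = 1) {ν : K} (hν : ν ≠ 0) : T.res (dl QK x xs (ν ^ 2)) ∈ M := by
  have h1' : polar QK xs x = 1 := by rw [polar_comm]; exact h1
  have hxx : polar QK x x = 0 := polar_self_of_Q hx
  have hss : polar QK xs xs = 0 := polar_self_of_Q hxs
  have e : dl QK x xs (ν ^ 2) = dl QK x xs ν * dl QK x xs ν := by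
    apply OG_ext
    intro y
    rw [Subgroup.coe_mul, LinearEquiv.mul_apply, dl_apply hx hxs h1 (pow_ne_zero 2 hν),
      dl_apply hx hxs h1 hν, dl_apply hx hxs h1 hν]
    simp only [polar_add_right, polar_smul_right, hxx, hss, h1, h1', smul_eq_mul]
    have : (ν ^ 2)⁻¹ = ν⁻¹ * ν⁻¹ := by rw [pow_two, mul_inv]
    rw [this]
    module
  rw [e]
  exact hM _

end Cfsg.Agent.Lib.Helper17.C3O
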