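import Cfsg.Agent.Lib.Helper17.C3O.Defs

set_option autoImplicit false
set_option linter.unusedSectionVars false
set_option linter.unusedVariables false

namespace Cfsg.Agent.Lib.Helper17.C3O

open QuadraticMap Module Cfsg.Agent.Lib.Helper95 Cfsg.Agent.Lib.Helper97.C3
  Cfsg.Agent.Lib.Helper97.OSub
open Cfsg.Agent.Lib.Helper49 hiding glEquiv glEquiv_apply

variable {F K V : Type*} [Field F] [Fintype F] [Field K] [Fintype K] [Algebra F K]
  [FiniteDimensional F K] [AddCommGroup V] [Module F V] [Module K V] [IsScalarTower F K V]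
  [FiniteDimensional K V]
  {QK : QuadraticForm K V} {κ : K →ₗ[F] F} {Q : QuadraticForm F V} {M : Subgroup (OG Q)}

theorem isSquare_of_norm_eq_one (h2 : (2 : F) ≠ 0) {ζ : K} (h : Algebra.norm F ζ = 1) :
    IsSquare ζ := by
  have hζ0 : ζ ≠ 0 := by
    rintro rfl
    rw [Algebra.norm_zero] at h
    exact zero_ne_one h
  have hcF : ringChar F ≠ 2 := by
    intro hc
    apply h2
    haveI : CharP F 2 := ringChar.of_eq hc
    exact CharTwo.two_eq_zero
  have hcK : ringChar K ≠ 2 := by
    intro hc
    apply h2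
    haveI : CharP K 2 := ringChar.of_eq hc
    have h3 : (algebraMap F K) 2 = 0 := by
      rw [map_ofNat]
      exact CharTwo.two_eq_zero
    exact (map_eq_zero _).1 h3
  rw [FiniteField.isSquare_iff hcK hζ0]
  have h1 : ζ ^ ((Nat.card K - 1) / (Nat.card F - 1)) = 1 := by
    rw [← FiniteField.algebraMap_norm_eq_pow (K := F), h, map_one]
  rw [Nat.card_eq_fintype_card, Nat.card_eq_fintype_card] at h1
  have hoF := FiniteField.odd_card_of_char_ne_two hcF
  have hoK := FiniteField.odd_card_of_char_ne_two hcK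
  have hcard : Fintype.card K = Fintype.card F ^ finrank F K := Module.card_eq_pow_finrank
  have hdvd : (Fintype.card F - 1) ∣ (Fintype.card K - 1) := by
    rw [hcard]
    exact Nat.sub_one_dvd_pow_sub_one _ _
  have hF1 : 1 < Fintype.card F := Fintype.one_lt_card
  obtain ⟨m, hm⟩ := hdvd
  have hpos : 0 < Fintype.card F - 1 := by omega
  rw [hm, Nat.mul_div_cancel_left _ hpos] at h1
  obtain ⟨a, ha⟩ : ∃ a, Fintype.card F - 1 = 2 * a := ⟨(Fintype.card F - 1) / 2, by omega⟩
  have h4 : Fintype.card K / 2 = m * a := by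
    rw [ha] at hm
    have h5 : Fintype.card K - 1 = 2 * (m * a) := by rw [hm]; ring
    omega
  rw [h4, pow_mul, h1, one_pow]

end Cfsg.Agent.Lib.Helper17.C3O
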