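import Cfsg.Agent.Lib.Helper17.C3O.Defs
import Cfsg.Agent.Lib.Helper17.C3O.G0
import Cfsg.Agent.Lib.Helper17.C3O.BKTV
import Cfsg.Agent.Lib.Helper17.C3O.NSQ

/-!
Ladder C3O, rung BKDIL: the `K`-dilatations of norm one of a totally singular `K`-subspace are
induced by `M`.
-/

set_option autoImplicit false
set_option linter.unusedSectionVars false
set_option linter.unusedVariables false

namespace Cfsg.Agent.Lib.Helper17.C3O

open QuadraticMap Module Cfsg.Agent.Lib.Helper95 Cfsg.Agent.Lib.Helper97.C3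
  Cfsg.Agent.Lib.Helper97.OSub
open Cfsg.Agent.Lib.Helper49 hiding glEquiv glEquiv_apply

variable {F K V : Type*} [Field F] [Fintype F] [Field K] [Fintype K] [Algebra F K]
  [FiniteDimensional F K] [AddCommGroup V] [Module F V] [Module K V] [IsScalarTower F K V]
  [FiniteDimensional K V]
  {QK : QuadraticForm K V} {κ : K →ₗ[F] F} {Q : QuadraticForm F V} {M : Subgroup (OG Q)}

theorem kdil_mem_XL (T : TF QK κ Q) (hM : BigO T M) (L : Submodule K V) (hL : ∀ l ∈ L, QK l = 0)
    (f : L →ₗ[K] K) (c : L) (h : 1 + f c ≠ 0) (hn : Algebra.norm F (1 + f c) = 1) :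
    kdil F f c h ∈ XL M L := by
  by_cases hfc : f c = 0
  · obtain ⟨y, hy, hyl⟩ := ktv_mem_XL T hM L hL f c hfc
    refine ⟨y, hy, fun l => ?_⟩
    rw [hyl l, ktv_apply, kdil_apply]
  · obtain ⟨v, hv⟩ := bktv_repr T.nd L ((f c)⁻¹ • f)
    have hvc : polar QK v (c : V) = 1 := by
      rw [hv c]
      simp [hfc]
    have hcc : polar QK (c : V) (c : V) = 0 := bktv_polar_zero L hL c.2 c.2
    set cs : V := v - QK v • (c : V) with hcs
    have hqcs : QK cs = 0 := by
      rw [hcs, Q_sub_smul, hL _ c.2, polar_comm, hvc]; ring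
    have h1 : polar QK (c : V) cs = 1 := by
      rw [hcs, polar_sub_right, polar_smul_right, hcc, polar_comm, hvc]; simp
    have hcsl : ∀ l : L, polar QK cs (l : V) = (f c)⁻¹ * f l := by
      intro l
      rw [hcs, polar_sub_left, polar_smul_left, bktv_polar_zero L hL c.2 l.2, hv l]
      simp
    obtain ⟨ν, hν⟩ := isSquare_of_norm_eq_one T.two hn
    have hν0 : ν ≠ 0 := by
      rintro rfl
      apply h
      rw [hν]; simp
    refine ⟨T.res (dl QK (c : V) cs (ν ^ 2)), dl_sq_mem T hM (hL _ c.2) hqcs h1 hν0, fun l => ?_⟩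
    rw [TF.res_apply, dl_apply (hL _ c.2) hqcs h1 (pow_ne_zero 2 hν0), hcsl l,
      bktv_polar_zero L hL c.2 l.2, kdil_apply, pow_two, ← hν]
    have e : (1 + f c - 1) * ((f c)⁻¹ * f l) = f l := by
      field_simp
      ring
    rw [e]
    simp

end Cfsg.Agent.Lib.Helper17.C3O
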