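import Cfsg.Agent.Lib.Helper17.C3O.Defs
import Cfsg.Agent.Lib.Helper18.C3OGeo

set_option autoImplicit false
set_option linter.unusedSectionVars false
set_option linter.unusedVariables false

namespace Cfsg.Agent.Lib.Helper17.C3O

open QuadraticMap Module Cfsg.Agent.Lib.Helper95 Cfsg.Agent.Lib.Helper97.C3
  Cfsg.Agent.Lib.Helper97.OSub
open Cfsg.Agent.Lib.Helper49 hiding glEquiv glEquiv_apply
open Cfsg.Agent.Lib.Helper18.C3OGeo

variable {F K V : Type*} [Field F] [Fintype F] [Field K] [Fintype K] [Algebra F K]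
  [FiniteDimensional F K] [AddCommGroup V] [Module F V] [Module K V] [IsScalarTower F K V]
  [FiniteDimensional K V]
  {QK : QuadraticForm K V} {κ : K →ₗ[F] F} {Q : QuadraticForm F V} {M : Subgroup (OG Q)}

/-- restriction of an `F`-automorphism to an invariant `K`-subspace -/
def bnrmRes (u : V ≃ₗ[F] V) (L : Submodule K V) (h1 : ∀ l ∈ L, u l ∈ L)
    (h2 : ∀ l ∈ L, u.symm l ∈ L) : L ≃ₗ[F] L where
  toFun l := ⟨u l, h1 l l.2⟩
  invFun l := ⟨u.symm l, h2 l l.2⟩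
  map_add' a b := by ext; simp
  map_smul' c a := by ext; simp
  left_inv a := by ext; simp
  right_inv a := by ext; simp

theorem bnrm_sub (L : Submodule K V) (P' : Submodule F V) (φ : V ≃ₗ[F] V) {x w : V}
    (hwL : w ∈ L) (hwP : w ∈ P') (hwx : w ∉ kpt F K x)
    (hdec : ∀ p ∈ P', ∃ (δ : K) (c : F), p = δ • x + c • w)
    (hfix : ∀ p ∈ P', φ p = p) (hmv : ∀ l ∈ L, φ l - l ∈ P')
    {a b : K} (hab : ∀ l ∈ L, φ (a • l) = b • φ l) : ∃ c : F, b - a = algebraMap F K c := by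
  have h1 : φ (a • w) = b • w := by rw [hab w hwL, hfix w hwP]
  have h2 := hmv (a • w) (L.smul_mem a hwL)
  rw [h1] at h2
  obtain ⟨δ, c, h3⟩ := hdec _ h2
  refine ⟨c, ?_⟩
  by_contra hne
  apply hwx
  have h4 : (b - a - algebraMap F K c) • w = δ • x := by
    rw [sub_smul, sub_smul, algebraMap_smul, h3]
    abel
  have h5 : b - a - algebraMap F K c ≠ 0 := sub_ne_zero.2 hne
  rw [mem_kpt]
  refine ⟨(b - a - algebraMap F K c)⁻¹ * δ, ?_⟩
  rw [mul_smul, ← h4, smul_smul, inv_mul_cancel₀ h5, one_smul]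

theorem bnrm_alg (h2 : (2 : F) ≠ 0) (L : Submodule K V) (P' : Submodule F V) (φ : V ≃ₗ[F] V)
    {x w : V} (hwL : w ∈ L) (hwP : w ∈ P') (hwx : w ∉ kpt F K x)
    (hdec : ∀ p ∈ P', ∃ (δ : K) (c : F), p = δ • x + c • w)
    (hfix : ∀ p ∈ P', φ p = p) (hmv : ∀ l ∈ L, φ l - l ∈ P')
    {a b : K} (hab : ∀ l ∈ L, φ (a • l) = b • φ l) : b = a := by
  obtain ⟨c, hc⟩ := bnrm_sub L P' φ hwL hwP hwx hdec hfix hmv hab
  have hab2 : ∀ l ∈ L, φ ((a * a) • l) = (b * b) • φ l := by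
    intro l hl
    rw [mul_smul, hab _ (L.smul_mem a hl), hab l hl, mul_smul]
  obtain ⟨c', hc'⟩ := bnrm_sub L P' φ hwL hwP hwx hdec hfix hmv hab2
  have hw0 : w ≠ 0 := by
    rintro rfl
    exact hwx (zero_mem _)
  by_cases hc0 : c = 0
  · rw [hc0, map_zero] at hc
    exact sub_eq_zero.1 hc
  · have hcK : algebraMap F K c ≠ 0 := (map_ne_zero _).2 hc0
    have h2K : (2 : K) ≠ 0 := by
      intro h
      apply h2
      have h3 : algebraMap F K 2 = 0 := by rw [map_ofNat]; exact h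
      exact (map_eq_zero _).1 h3
    obtain ⟨a₀, ha₀⟩ : ∃ a₀ : F, a₀ = (c' - c * c) / (2 * c) := ⟨_, rfl⟩
    have ha : a = algebraMap F K a₀ := by
      rw [ha₀, map_div₀, map_sub, map_mul, map_mul, map_ofNat,
        eq_div_iff (mul_ne_zero h2K hcK)]
      linear_combination hc' - (b + a + algebraMap F K c) * hc
    have h5 : a • w = a₀ • w := by rw [ha, algebraMap_smul]
    have h6 : φ (a • w) = a • w := by rw [h5, map_smul, hfix w hwP]
    have h7 : φ (a • w) = b • w := by rw [hab w hwL, hfix w hwP]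
    have h8 : (b - a) • w = 0 := by rw [sub_smul, ← h7, h6, sub_self]
    rcases smul_eq_zero.1 h8 with h | h
    · exact sub_eq_zero.1 h
    · exact absurd h hw0

theorem exists_not_nrm (T : TF QK κ Q) (hM : BigO T M) {x : V} {g : OG Q} {x₀ : V}
    (h : CloseO QK M x g x₀) {w : V} (hw : w ∈ (kpt F K x₀).map g.1.toLinearMap)
    (hwx : w ∉ kpt F K x) (hwq : QK w = 0) :
    ∃ e ∈ XL M (Submodule.span K {x, w}), ¬ Nrm K e := by
  have : FiniteDimensional F V := Module.Finite.trans K V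
  obtain ⟨hcfg, hclose, horth⟩ := h
  obtain ⟨hx0, hqx, hy0, hqy, hgM, hne, hinf⟩ := hcfg
  have hmemP' : ∀ c : K, g.1 (c • x₀) ∈ (kpt F K x₀).map g.1.toLinearMap :=
    fun c => ⟨c • x₀, smul_mem_kpt c x₀, rfl⟩
  have hP'ex : ∀ p ∈ (kpt F K x₀).map g.1.toLinearMap, ∃ c : K, p = g.1 (c • x₀) := by
    rintro p ⟨y, hy, rfl⟩
    obtain ⟨c, rfl⟩ := mem_kpt.1 hy
    exact ⟨c, rfl⟩
  have hfP : finrank F ↥(kpt F K x) = finrank F K := finrank_kpt hx0
  have hfP' : finrank F ↥((kpt F K x₀).map g.1.toLinearMap) = finrank F K := by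
    rw [LinearEquiv.finrank_map_eq, finrank_kpt hy0]
  generalize (kpt F K x₀).map g.1.toLinearMap = P' at *
  obtain ⟨L, hL⟩ : ∃ L, L = Submodule.span K {x, w} := ⟨_, rfl⟩
  rw [← hL]
  have hw0 : w ≠ 0 := by
    rintro rfl
    exact hwx (zero_mem _)
  -- decomposition
  have hdec0 : (kpt F K x ⊓ P') ⊔ Submodule.span F {w} = P' := by
    apply Submodule.eq_of_le_of_finrank_le
    · exact sup_le inf_le_right ((Submodule.span_singleton_le_iff_mem _ _).2 hw)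
    · have h1 := Submodule.finrank_sup_add_finrank_inf_eq (kpt F K x ⊓ P') (Submodule.span F {w})
      have h2 : (kpt F K x ⊓ P') ⊓ Submodule.span F {w} = ⊥ := by
        rw [eq_bot_iff]
        rintro z ⟨⟨hz1, -⟩, hz2⟩
        obtain ⟨c, rfl⟩ := Submodule.mem_span_singleton.1 hz2
        by_cases hc : c = 0
        · simp [hc]
        · exfalso
          apply hwx
          have h3 := (kpt F K x).smul_mem c⁻¹ hz1
          rwa [smul_smul, inv_mul_cancel₀ hc, one_smul] at h3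
      rw [h2, finrank_bot, finrank_span_singleton hw0, hclose] at h1
      rw [hfP']
      omega
  have hdec : ∀ p ∈ P', ∃ (δ : K) (c : F), p = δ • x + c • w := by
    intro p hp
    rw [← hdec0] at hp
    obtain ⟨y, hy, z, hz, rfl⟩ := Submodule.mem_sup.1 hp
    obtain ⟨δ, rfl⟩ := mem_kpt.1 hy.1
    obtain ⟨c, rfl⟩ := Submodule.mem_span_singleton.1 hz
    exact ⟨δ, c, rfl⟩
  have hxL : x ∈ L := by
    rw [hL]
    exact Submodule.subset_span (by simp)
  have hwL : w ∈ L := by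
    rw [hL]
    exact Submodule.subset_span (by simp)
  have hP'L : ∀ p ∈ P', p ∈ L := by
    intro p hp
    obtain ⟨δ, c, rfl⟩ := hdec p hp
    refine L.add_mem (L.smul_mem δ hxL) ?_
    rw [← algebraMap_smul K c w]
    exact L.smul_mem _ hwL
  have hxw : polar QK x w = 0 := horth w hw
  have hLL : ∀ l ∈ L, ∀ m ∈ L, polar QK l m = 0 := by
    intro l hl m hm
    rw [hL] at hl hm
    obtain ⟨a, b, rfl⟩ := Submodule.mem_span_pair.1 hl
    obtain ⟨a', b', rfl⟩ := Submodule.mem_span_pair.1 hm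
    simp only [polar_add_left, polar_add_right, polar_smul_left, polar_smul_right, polar_self',
      hqx, hwq, hxw, polar_comm QK w x]
    simp
  -- `x₁`
  obtain ⟨x₁, hx₁P, hx₁P'⟩ : ∃ x₁ ∈ kpt F K x, x₁ ∉ P' := by
    by_contra hcon
    push Not at hcon
    exact hne (Submodule.eq_of_le_of_finrank_eq hcon (by rw [hfP, hfP']))
  have hpull : ∀ l ∈ L, polar QK x₀ (g.1.symm l) = 0 := by
    intro l hl
    apply T.polarK_eq_zero
    intro c
    rw [← OG_polar Q g, LinearEquiv.apply_symm_apply, T.polar_eq,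
      hLL _ (hP'L _ (hmemP' c)) _ hl, map_zero]
  have hx₁L : x₁ ∈ L := by
    obtain ⟨a, rfl⟩ := mem_kpt.1 hx₁P
    exact L.smul_mem a hxL
  -- `v₀`
  obtain ⟨v₀, hv₀, hv₀p⟩ : ∃ v₀, polar QK x₀ v₀ = 0 ∧ polar QK v₀ (g.1.symm x₁) ≠ 0 := by
    by_contra hcon
    push Not at hcon
    obtain ⟨xs, hxs⟩ := qexists_dual QK T.nd hy0
    obtain ⟨p₀, hp₀⟩ : ∃ p₀, p₀ = g.1.symm x₁ := ⟨_, rfl⟩
    rw [← hp₀] at hcon
    have h1 : p₀ - polar QK p₀ xs • x₀ = 0 := by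
      apply T.nd.1
      intro t
      change polar QK (p₀ - polar QK p₀ xs • x₀) t = 0
      have h2 := hcon (t - polar QK x₀ t • xs)
        (by rw [polar_sub_right, polar_smul_right, hxs]; simp)
      rw [polar_sub_left, polar_smul_left] at h2 ⊢
      rw [polar_comm QK t p₀, polar_comm QK xs p₀] at h2
      simp only [smul_eq_mul] at h2 ⊢
      linear_combination h2
    apply hx₁P'
    have h3 : x₁ = g.1 (polar QK p₀ xs • x₀) := by
      rw [← sub_eq_zero.1 h1, hp₀, LinearEquiv.apply_symm_apply]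
    rw [h3]
    exact hmemP' _
  -- the elements
  have hform : ∀ (v : V) (hv : polar QK x₀ v = 0), ∀ l ∈ L,
      (g * kE T (⟨hqy, hv⟩ : RPair QK x₀ v) * g⁻¹).1 l
        = l - g.1 (polar QK v (g.1.symm l) • x₀) := by
    intro v hv l hl
    change g.1 ((kE T (⟨hqy, hv⟩ : RPair QK x₀ v)).1 (g.1.symm l)) = _
    rw [kE_apply, hpull l hl]
    simp
  have hstab : ∀ (v : V) (hv : polar QK x₀ v = 0), ∀ l ∈ L,
      (g * kE T (⟨hqy, hv⟩ : RPair QK x₀ v) * g⁻¹).1 l ∈ L := by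
    intro v hv l hl
    rw [hform v hv l hl]
    exact L.sub_mem hl (hP'L _ (hmemP' _))
  obtain ⟨u', hu'⟩ : ∃ u' : OG Q, u' = g * kE T (⟨hqy, hv₀⟩ : RPair QK x₀ v₀) * g⁻¹ := ⟨_, rfl⟩
  have hu'M : u' ∈ M := by
    rw [hu']
    exact M.mul_mem (M.mul_mem hgM (kE_mem T hM _)) (M.inv_mem hgM)
  have hinv : u'⁻¹ = g * kE T (⟨hqy, by rw [polar_neg_right, hv₀, neg_zero]⟩ :
      RPair QK x₀ (-v₀)) * g⁻¹ := by
    rw [hu', mul_inv_rev, mul_inv_rev, inv_inv, kE_inv, mul_assoc]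
  have hst : ∀ l ∈ L, u'.1 l ∈ L := by
    rw [hu']
    exact hstab v₀ hv₀
  have hsymm : ∀ l ∈ L, u'.1.symm l ∈ L := by
    intro l hl
    have h1 : u'.1.symm l = (u'⁻¹).1 l := rfl
    rw [h1, hinv]
    exact hstab (-v₀) (by rw [polar_neg_right, hv₀, neg_zero]) l hl
  have hform' : ∀ l ∈ L, u'.1 l = l - g.1 (polar QK v₀ (g.1.symm l) • x₀) := by
    rw [hu']
    exact hform v₀ hv₀
  refine ⟨bnrmRes u'.1 L hst hsymm, ⟨u', hu'M, fun l => rfl⟩, ?_⟩
  intro hN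
  have hN' : ∀ a : K, ∃ b : K, ∀ l ∈ L, u'.1 (a • l) = b • u'.1 l := by
    intro a
    obtain ⟨b, hb⟩ := hN a
    exact ⟨b, fun l hl => congrArg Subtype.val (hb ⟨l, hl⟩)⟩
  have hfix : ∀ p ∈ P', u'.1 p = p := by
    intro p hp
    rw [hform' p (hP'L p hp)]
    obtain ⟨c, rfl⟩ := hP'ex p hp
    rw [LinearEquiv.symm_apply_apply, polar_smul_right, polar_comm QK v₀ x₀, hv₀]
    simp
  have hmv : ∀ l ∈ L, u'.1 l - l ∈ P' := by
    intro l hl
    rw [hform' l hl]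
    have h1 : l - g.1 (polar QK v₀ (g.1.symm l) • x₀) - l
        = - g.1 (polar QK v₀ (g.1.symm l) • x₀) := by abel
    rw [h1]
    exact P'.neg_mem (hmemP' _)
  have hx₁ne : u'.1 x₁ ≠ x₁ := by
    rw [hform' x₁ hx₁L]
    intro h1
    have h2 : g.1 (polar QK v₀ (g.1.symm x₁) • x₀) = 0 := sub_eq_self.1 h1
    have h3 := (LinearEquiv.map_eq_zero_iff g.1).1 h2
    rcases smul_eq_zero.1 h3 with h4 | h4
    · exact hv₀p h4
    · exact hy0 h4
  obtain ⟨d, hd, hd0⟩ := Submodule.exists_mem_ne_zero_of_ne_bot hinf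
  obtain ⟨δ, rfl⟩ := mem_kpt.1 hd.1
  have hδ : δ ≠ 0 := by
    rintro rfl
    simp at hd0
  obtain ⟨a₁, rfl⟩ := mem_kpt.1 hx₁P
  obtain ⟨b, hb⟩ := hN' (a₁ * δ⁻¹)
  have hba := bnrm_alg T.two L P' u'.1 hwL hw hwx hdec hfix hmv hb
  apply hx₁ne
  have h1 := hb (δ • x) (hP'L _ hd.2)
  rw [hba, hfix _ hd.2, smul_smul, mul_assoc, inv_mul_cancel₀ hδ, mul_one] at h1
  exact h1

end Cfsg.Agent.Lib.Helper17.C3O
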