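import Cfsg.Agent.Lib.Helper17.C3O.Defs
import Cfsg.Agent.Lib.Helper97.C3.RK1

set_option autoImplicit false
set_option linter.unusedSectionVars false
set_option linter.unusedVariables false

namespace Cfsg.Agent.Lib.Helper17.C3O

open QuadraticMap Module Cfsg.Agent.Lib.Helper95 Cfsg.Agent.Lib.Helper97.C3
  Cfsg.Agent.Lib.Helper97.OSub
open Cfsg.Agent.Lib.Helper49 hiding glEquiv glEquiv_apply

variable {F K V : Type*} [Field F] [Fintype F] [Field K] [Fintype K] [Algebra F K]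
  [FiniteDimensional F K] [AddCommGroup V] [Module F V] [Module K V] [IsScalarTower F K V]
  [FiniteDimensional K V]
  {QK : QuadraticForm K V} {κ : K →ₗ[F] F} {Q : QuadraticForm F V} {M : Subgroup (OG Q)}

/-- RUNG CASEA -/
theorem hasTrv_of_closeO (T : TF QK κ Q) (hM : BigO T M) {x : V} {g : OG Q} {x₀ : V}
    (h : CloseO QK M x g x₀) {w : V} (hw : w ∈ (kpt F K x₀).map g.1.toLinearMap) (hwq : QK w ≠ 0) :
    ∃ δ₀ : K, δ₀ ≠ 0 ∧ HasTrv QK M x₀ δ₀ := by
  have : FiniteDimensional F V := FiniteDimensional.trans F K V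
  set P' := (kpt F K x₀).map g.1.toLinearMap with hP'
  have h2 := T.twoK
  have memP' : ∀ y, y ∈ P' ↔ ∃ l : K, g.1 (l • x₀) = y := by
    intro y
    constructor
    · rintro ⟨z, hz, rfl⟩
      obtain ⟨l, rfl⟩ := mem_kpt.1 hz
      exact ⟨l, rfl⟩
    · rintro ⟨l, rfl⟩
      exact ⟨l • x₀, smul_mem_kpt l x₀, rfl⟩
  have hginv : ∀ z, (g⁻¹).1 (g.1 z) = z := by
    intro z
    have := OG_apply_inv_apply g⁻¹ z
    rwa [inv_inv] at this
  have hfP : ∀ p ∈ P', ∀ p' ∈ P', polar Q p p' = 0 := by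
    intro p hp p' hp'
    obtain ⟨l, rfl⟩ := (memP' p).1 hp
    obtain ⟨l', rfl⟩ := (memP' p').1 hp'
    rw [OG_polar, T.polar_eq, polar_smul_left, polar_smul_right, polar_self, h.qy]; simp
  have hQw : Q w = 0 := by
    obtain ⟨l, rfl⟩ := (memP' w).1 hw
    rw [OG_apply, T.hQ, QuadraticMap.map_smul, h.qy]; simp
  have hww : polar QK w w = 2 * QK w := by rw [polar_self]; simp
  have hxw : polar QK x w = 0 := h.orth w hw
  have hwx : polar QK w x = 0 := by rw [polar_comm]; exact hxw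
  -- the functional describing `K x ⊓ P'`
  obtain ⟨ω₁, -, -, -, hω₁0, hω₁⟩ := closeW_of_close (K := K) (⊤ : Subgroup (V ≃ₗ[F] V))
    (x := x) (x₀ := x₀) (g := g.1) ⟨h.x0, h.y0, trivial, h.close⟩
  obtain ⟨a, ha⟩ := dualK T.hκ ω₁
  have ha0 : a ≠ 0 := by
    rintro rfl
    apply hω₁0
    ext l
    rw [ha]; simp
  have hxP : ∀ l : K, l • x ∈ P' ↔ κ (a * l) = 0 := fun l => by rw [← ha, hω₁]
  obtain ⟨l₁, hl₁⟩ : ∃ l₁ : K, κ l₁ = 1 := by
    have : ∃ l : K, κ l ≠ 0 := by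
      by_contra hc
      push Not at hc
      exact T.hκ (LinearMap.ext hc)
    obtain ⟨l, hl⟩ := this
    exact ⟨(κ l)⁻¹ • l, by rw [map_smul, smul_eq_mul, inv_mul_cancel₀ hl]⟩
  -- the Siegel element
  have hR : RPair QK x (a⁻¹ • w) := ⟨h.qx, by rw [polar_smul_right, hxw, smul_zero]⟩
  have hy₀M : kE T hR ∈ M := kE_mem T hM hR
  set y₀ := kE T hR with hy₀
  have hy₀P : ∀ p ∈ P', y₀.1 p = p - (a⁻¹ * polar QK w p) • x := by
    intro p hp
    rw [hy₀, kE_apply, h.orth p hp, polar_smul_left]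
    simp
  -- decomposition of `P'`
  have hwK : w ∉ kpt F K x := by
    intro hc
    obtain ⟨l, rfl⟩ := mem_kpt.1 hc
    apply hwq
    rw [QuadraticMap.map_smul, h.qx]; simp
  have hdec : ∀ p ∈ P', ∃ c : F, polar QK w p = c • (2 * QK w) := by
    have hfin : finrank F P' = finrank F K := by
      rw [hP', LinearEquiv.finrank_map_eq, finrank_kpt h.y0]
    have hle : (kpt F K x ⊓ P') ⊔ Submodule.span F {w} ≤ P' :=
      sup_le inf_le_right ((Submodule.span_singleton_le_iff_mem _ _).2 hw)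
    have hlt : kpt F K x ⊓ P' < (kpt F K x ⊓ P') ⊔ Submodule.span F {w} := by
      refine lt_of_le_of_ne le_sup_left ?_
      intro he
      apply hwK
      have : w ∈ kpt F K x ⊓ P' := by
        rw [he]
        exact (le_sup_right : Submodule.span F {w} ≤ _) (Submodule.mem_span_singleton_self w)
      exact this.1
    have h3 := Submodule.finrank_lt_finrank_of_lt hlt
    have hcl : finrank F ↥(kpt F K x ⊓ P') + 1 = finrank F K := h.close
    have heq : (kpt F K x ⊓ P') ⊔ Submodule.span F {w} = P' :=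
      Submodule.eq_of_le_of_finrank_le hle (by omega)
    intro p hp
    rw [← heq] at hp
    obtain ⟨d, hd, z, hz, rfl⟩ := Submodule.mem_sup.1 hp
    obtain ⟨c, rfl⟩ := Submodule.mem_span_singleton.1 hz
    obtain ⟨l, rfl⟩ := mem_kpt.1 hd.1
    refine ⟨c, ?_⟩
    rw [polar_add_right, polar_smul_right, hwx, ← algebraMap_smul K c w, polar_smul_right, hww,
      Algebra.smul_def c (2 * QK w)]
    simp
  set m₀ : K := a⁻¹ * (2 * QK w) with hm₀
  have hm₀0 : m₀ ≠ 0 := mul_ne_zero (inv_ne_zero ha0) (mul_ne_zero h2 hwq)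
  have hm₀P : m₀ • x ∈ P' := by
    rw [hxP, hm₀, ← mul_assoc, mul_inv_cancel₀ ha0, one_mul, ← hww, ← T.polar_eq]
    exact hfP w hw w hw
  obtain ⟨l₀, hl₀⟩ := (memP' _).1 hm₀P
  have hl₀0 : l₀ ≠ 0 := by
    rintro rfl
    rw [zero_smul, map_zero] at hl₀
    exact (smul_ne_zero hm₀0 h.x0) hl₀.symm
  set e : K := l₁ * (2 * QK w)⁻¹ with he
  have hee : κ (e * (2 * QK w)) = 1 := by
    rw [he, mul_assoc, inv_mul_cancel₀ (mul_ne_zero h2 hwq), mul_one, hl₁]
  let ω : K →ₗ[F] F := κ ∘ₗ (LinearMap.mulLeft F e) ∘ₗ ((polarBilin QK w).restrictScalars F) ∘ₗ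
    g.1.toLinearMap ∘ₗ (rk1_phi (F := F) (K := K) x₀)
  have hω : ∀ l, ω l = κ (e * polar QK w (g.1 (l • x₀))) := fun l => rfl
  have hyM : g⁻¹ * y₀ * g ∈ M := M.mul_mem (M.mul_mem (M.inv_mem h.gM) hy₀M) h.gM
  have hyapp : ∀ v, (g⁻¹ * y₀ * g).1 v = (g⁻¹).1 (y₀.1 (g.1 v)) := fun v => rfl
  refine ⟨-l₀, neg_ne_zero.2 hl₀0, g⁻¹ * y₀ * g, ω, hyM, ?_, ?_, ?_, ?_⟩
  · intro h0
    obtain ⟨lw, hlw⟩ := (memP' w).1 hw
    have : ω lw = 1 := by rw [hω, hlw, hww, hee]
    rw [h0] at this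
    simp at this
  · rw [hω, neg_smul, map_neg, hl₀, polar_neg_right, polar_smul_right, hwx]
    simp
  · intro l
    have hp : g.1 (l • x₀) ∈ P' := (memP' _).2 ⟨l, rfl⟩
    obtain ⟨c, hc⟩ := hdec _ hp
    have hωl : ω l = c := by
      rw [hω, hc, mul_smul_comm, map_smul, hee, smul_eq_mul, mul_one]
    rw [hyapp, hy₀P _ hp, hc, hωl, map_sub, hginv]
    have e1 : (a⁻¹ * c • (2 * QK w)) • x = c • (m₀ • x) := by
      rw [mul_smul_comm, hm₀, smul_assoc]
    rw [e1, map_smul, ← hl₀, hginv, neg_smul, smul_neg, sub_eq_add_neg]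
  · intro w' hw'
    set y := g.1 w' with hy
    have hperp : ∀ p ∈ P', polar Q p y = 0 := by
      intro p hp
      obtain ⟨l, rfl⟩ := (memP' p).1 hp
      rw [hy, OG_polar, T.polar_eq, polar_smul_left, hw']; simp
    set b := polar QK x y with hb
    set l₀' : K := a⁻¹ * l₁ with hl₀'
    have hal : κ (a * l₀') = 1 := by
      rw [hl₀', ← mul_assoc, mul_inv_cancel₀ ha0, one_mul, hl₁]
    set c : F := κ (l₀' * b) with hc
    have hbc : b = c • a := by
      apply T.eq_of_kappa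
      intro l
      have h3 : κ (a * (l - κ (a * l) • l₀')) = 0 := by
        rw [mul_sub, mul_smul_comm, map_sub, map_smul, hal]; simp
      have h4 := hperp _ ((hxP _).2 h3)
      rw [T.polar_eq, polar_smul_left, ← hb, smul_eq_mul, sub_mul, smul_mul_assoc, map_sub,
        map_smul, ← hc, smul_eq_mul, sub_eq_zero] at h4
      rw [h4, mul_smul_comm, map_smul, smul_eq_mul, mul_comm l a, mul_comm]
    set μ : K := a⁻¹ * polar QK w y + a⁻¹ * a⁻¹ * QK w * b with hμ
    have hμP : μ • x ∈ P' := by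
      rw [hxP]
      have e1 : a * μ = polar QK w y + c • QK w := by
        rw [hμ, hbc, Algebra.smul_def, Algebra.smul_def]
        field_simp
      rw [e1, map_add, map_smul, ← T.polar_eq, ← T.hQ, hQw, hperp w hw]
      simp
    have hdiff : y₀.1 y - y = c • w - μ • x := by
      rw [hy₀, kE_apply, ← hb, polar_smul_left, QuadraticMap.map_smul]
      have e1 : b • a⁻¹ • w = c • w := by
        rw [hbc, smul_smul, smul_mul_assoc, mul_inv_cancel₀ ha0, smul_assoc, one_smul]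
      rw [e1, hμ]
      simp only [smul_eq_mul]
      module
    have hmem : y₀.1 y - y ∈ P' := by
      rw [hdiff]
      exact P'.sub_mem (P'.smul_mem c hw) hμP
    obtain ⟨l, hl⟩ := (memP' _).1 hmem
    refine ⟨l, ?_⟩
    rw [hyapp]
    have e2 : (g⁻¹).1 (y₀.1 y) - w' = (g⁻¹).1 (y₀.1 y - y) := by
      rw [map_sub, hy, hginv]
    rw [← hy, e2, ← hl, hginv]

end Cfsg.Agent.Lib.Helper17.C3O
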