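import Cfsg.Agent.Lib.Helper17.C3O.Defs

set_option autoImplicit false
set_option linter.unusedSectionVars false
set_option linter.unusedVariables false
set_option linter.unusedSimpArgs false

namespace Cfsg.Agent.Lib.Helper17.C3O

open QuadraticMap Module Cfsg.Agent.Lib.Helper95 Cfsg.Agent.Lib.Helper97.C3
  Cfsg.Agent.Lib.Helper97.OSub
open Cfsg.Agent.Lib.Helper49 hiding glEquiv glEquiv_apply

variable {F K V : Type*} [Field F] [Fintype F] [Field K] [Fintype K] [Algebra F K]
  [FiniteDimensional F K] [AddCommGroup V] [Module F V] [Module K V] [IsScalarTower F K V]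
  [FiniteDimensional K V]
  {QK : QuadraticForm K V} {κ : K →ₗ[F] F} {Q : QuadraticForm F V} {M : Subgroup (OG Q)}


omit [Fintype F] [Fintype K] [FiniteDimensional F K] in
private lemma form_uniq {κ₀ : K →ₗ[F] F} (hκ : κ₀ ≠ 0) {z : K} (h : ∀ l : K, κ₀ (l * z) = 0) :
    z = 0 := by
  by_contra hz
  apply hκ
  ext l
  have := h (l * z⁻¹)
  rwa [mul_assoc, inv_mul_cancel₀ hz, mul_one] at this

omit [Fintype F] [Fintype K] [FiniteDimensional K V] in
theorem exists_TF (h2 : (2 : F) ≠ 0) (Q : QuadraticForm F V) (hnd : (polarBilin Q).Nondegenerate)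
    (hsa : ∀ (k : K) (u v : V), polar Q (k • u) v = polar Q u (k • v)) :
    ∃ (QK : QuadraticForm K V) (κ : K →ₗ[F] F), TF QK κ Q := by
  obtain ⟨κ₀, hκ1⟩ := exists_kappa (F := F) (K := K) (one_ne_zero)
  have hκ : κ₀ ≠ 0 := by
    rintro rfl
    simp at hκ1
  have hex : ∀ u : V, ∃ f : V →ₗ[K] K, ∀ v : V, polarBilin Q u v = κ₀ (f v) :=
    fun u => dualV hκ (polarBilin Q u)
  choose f hf using hex
  have hf' : ∀ u v, polar Q u v = κ₀ (f u v) := hf
  have huniq : ∀ (g g' : V →ₗ[K] K), (∀ v, κ₀ (g v) = κ₀ (g' v)) → g = g' := by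
    intro g g' h
    ext v
    rw [← sub_eq_zero]
    apply form_uniq hκ
    intro l
    have := h (l • v)
    rw [g.map_smul, g'.map_smul, smul_eq_mul, smul_eq_mul] at this
    rw [mul_sub, map_sub, this, sub_self]
  let B : LinearMap.BilinForm K V :=
    { toFun := f
      map_add' := fun u u' => by
        apply huniq
        intro v
        rw [LinearMap.add_apply, map_add, ← hf', ← hf', ← hf', polar_add_left]
      map_smul' := fun k u => by
        apply huniq
        intro v
        rw [RingHom.id_apply, LinearMap.smul_apply, smul_eq_mul, ← hf', hsa, hf', (f u).map_smul,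
          smul_eq_mul] }
  have hβ : ∀ u v, polar Q u v = κ₀ (B u v) := fun u v => hf u v
  have hsymm : ∀ u v, B u v = B v u := by
    intro u v
    rw [← sub_eq_zero]
    apply form_uniq hκ
    intro l
    have e1 : κ₀ (l * B u v) = polar Q u (l • v) := by rw [hβ, (B u).map_smul, smul_eq_mul]
    have e2 : κ₀ (l * B v u) = polar Q v (l • u) := by rw [hβ, (B v).map_smul, smul_eq_mul]
    rw [mul_sub, map_sub, e1, e2, ← hsa, polar_comm, sub_self]
  have h2K : (2 : K) ≠ 0 := by
    intro h
    apply h2
    have : algebraMap F K 2 = 0 := by rw [map_ofNat]; exact h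
    exact (map_eq_zero _).1 this
  let QK : QuadraticForm K V := LinearMap.BilinMap.toQuadraticMap ((2⁻¹ : K) • B)
  have hQK : ∀ v, QK v = 2⁻¹ * B v v := fun v => by
    change ((2⁻¹ : K) • B) v v = _
    rw [LinearMap.smul_apply, LinearMap.smul_apply, smul_eq_mul]
  have hpol : ∀ u v, polar QK u v = B u v := by
    intro u v
    rw [polar, hQK, hQK, hQK, map_add, map_add, LinearMap.add_apply, LinearMap.add_apply,
      hsymm v u]
    field_simp
    ring
  refine ⟨QK, κ₀, ⟨?_, hκ, ?_, h2⟩⟩
  · intro v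
    have e : (2⁻¹ : K) * B v v = (2⁻¹ : F) • B v v := by
      rw [Algebra.smul_def, map_inv₀, map_ofNat]
    rw [hQK, e, map_smul, ← hβ, polar_self, smul_eq_mul]
    simp only [nsmul_eq_mul, Nat.cast_ofNat]
    field_simp
  · apply nondegenerate_of_separatingLeft
    intro x hx
    apply hnd.1 x
    intro y
    change polar Q x y = 0
    have := hx y
    change polar QK x y = 0 at this
    rw [hβ, ← hpol, this, map_zero]

end Cfsg.Agent.Lib.Helper17.C3O
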