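import Cfsg.Agent.Lib.Helper17.C3O.Defs
import Cfsg.Agent.Lib.Helper18.C3OGeo

set_option autoImplicit false
set_option linter.unusedSectionVars false
set_option linter.unusedVariables false

namespace Cfsg.Agent.Lib.Helper17.C3O

open QuadraticMap Module Cfsg.Agent.Lib.Helper95 Cfsg.Agent.Lib.Helper97.C3
  Cfsg.Agent.Lib.Helper97.OSub
open Cfsg.Agent.Lib.Helper49 hiding glEquiv glEquiv_apply
open Cfsg.Agent.Lib.Helper18.C3OGeo

variable {F K V : Type*} [Field F] [Fintype F] [Field K] [Fintype K] [Algebra F K]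
  [FiniteDimensional F K] [AddCommGroup V] [Module F V] [Module K V] [IsScalarTower F K V]
  [FiniteDimensional K V]
  {QK : QuadraticForm K V} {κ : K →ₗ[F] F} {Q : QuadraticForm F V} {M : Subgroup (OG Q)}

/-- a singular partner inside `y^⊥` -/
theorem g2_partner (hnd : (polarBilin QK).Nondegenerate) (h2 : (2 : K) ≠ 0) {y z : V}
    (hy : QK y ≠ 0) (hz0 : z ≠ 0) (hz : QK z = 0) (hyz : polar QK y z = 0) :
    ∃ zs, QK zs = 0 ∧ polar QK z zs = 1 ∧ polar QK y zs = 0 := by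
  obtain ⟨t, ht⟩ := qexists_dual QK hnd hz0
  obtain ⟨c, hc⟩ := proj1 h2 hy t
  set t' := t - c • y with ht'
  have h1 : polar QK z t' = 1 := by
    rw [ht', polar_sub_right, polar_smul_right, polar_comm QK z y, hyz, ht]
    simp
  obtain ⟨k1, k2⟩ := partner_of_dual hz h1
  refine ⟨t' - QK t' • z, k1, k2, ?_⟩
  rw [polar_sub_right, polar_smul_right, hc, hyz]
  simp

/-- projection to `<y, z, zs>^⊥` -/
theorem g2_proj3 (h2 : (2 : K) ≠ 0) {y z zs : V} (hy : QK y ≠ 0) (hz : QK z = 0)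
    (hzs : QK zs = 0) (h1 : polar QK z zs = 1) (hyz : polar QK y z = 0)
    (hyzs : polar QK y zs = 0) (t : V) :
    ∃ w, polar QK y w = 0 ∧ polar QK z w = 0 ∧ polar QK zs w = 0 ∧
      ∀ u, polar QK y u = 0 → polar QK z u = 0 → polar QK zs u = 0 →
        polar QK u w = polar QK u t := by
  obtain ⟨c, hc⟩ := proj1 h2 hy t
  set t' := t - c • y with ht'
  refine ⟨t' - polar QK zs t' • z - polar QK z t' • zs, ?_, ?_, ?_, ?_⟩
  · simp only [polar_sub_right, polar_smul_right, hc, hyz, hyzs]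
    simp
  · simp only [polar_sub_right, polar_smul_right, polar_self', hz, h1]
    simp
  · simp only [polar_sub_right, polar_smul_right, polar_self', hzs, polar_comm QK zs z, h1]
    simp
  · intro u k1 k2 k3
    simp only [ht', polar_sub_right, polar_smul_right, polar_comm QK u z, polar_comm QK u zs,
      polar_comm QK u y, k1, k2, k3]
    simp

theorem exists_start_pair (hnd : (polarBilin QK).Nondegenerate) (h2 : (2 : K) ≠ 0)
    (hd : 4 ≤ finrank K V) {y p : V} (hy : QK y ≠ 0) (hp : p ∉ Submodule.span K {y}) :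
    ∃ z v, QK z = 0 ∧ polar QK y z = 0 ∧ polar QK z p ≠ 0 ∧ polar QK y v = 0 ∧ polar QK z v = 0 ∧
      QK v ≠ 0 := by
  -- a hyperbolic pair in `y^⊥`
  obtain ⟨z₁, hz₁N, hz₁0, hqz₁⟩ := Cfsg.Agent.Lib.Helper50.Quad.exists_singular (Q := QK)
    (pN QK ![y]) (card_pN _ (by omega))
  rw [mem_pN] at hz₁N
  have hyz₁ : polar QK y z₁ = 0 := hz₁N 0
  obtain ⟨z₂, hqz₂, h12, hyz₂⟩ := g2_partner hnd h2 hy hz₁0 hqz₁ hyz₁
  -- the projection of `p`
  obtain ⟨c₀, hc₀⟩ := proj1 h2 hy p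
  set p' := p - c₀ • y with hp'
  have hp'0 : p' ≠ 0 := by
    intro h0
    apply hp
    have : p = c₀ • y := by
      have h3 : p - c₀ • y = 0 := h0
      exact sub_eq_zero.1 h3
    rw [this]
    exact Submodule.smul_mem _ _ (Submodule.mem_span_singleton_self y)
  have hproj : ∀ u, polar QK y u = 0 → polar QK u p = polar QK u p' := by
    intro u h1
    rw [hp', polar_sub_right, polar_smul_right, polar_comm QK u y, h1]
    simp
  -- the vector `z`
  obtain ⟨z, hz0, hqz, hyz, hzp⟩ : ∃ z, z ≠ 0 ∧ QK z = 0 ∧ polar QK y z = 0 ∧ polar QK z p ≠ 0 := by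
    by_cases k1 : polar QK z₁ p = 0
    · by_cases k2 : polar QK z₂ p = 0
      · obtain ⟨t, ht⟩ := qexists_dual QK hnd hp'0
        obtain ⟨w, w1, w2, w3, w4⟩ := g2_proj3 h2 hy hqz₁ hqz₂ h12 hyz₁ hyz₂ t
        have k1' : polar QK z₁ p' = 0 := by rw [← hproj z₁ hyz₁, k1]
        have k2' : polar QK z₂ p' = 0 := by rw [← hproj z₂ hyz₂, k2]
        have hpw : polar QK p' w = 1 := by rw [w4 p' hc₀ k1' k2', ht]
        have hzp : polar QK (z₁ - QK w • z₂ + w) p ≠ 0 := by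
          rw [hproj _ (by
            rw [polar_add_right, polar_sub_right, polar_smul_right, hyz₁, hyz₂, w1]; simp)]
          rw [polar_add_left, polar_sub_left, polar_smul_left, k1', k2', polar_comm QK w, hpw]
          simp
        refine ⟨z₁ - QK w • z₂ + w, ?_, ?_, ?_, hzp⟩
        · intro h0
          rw [h0] at hzp
          simp at hzp
        · rw [QuadraticMap.map_add QK, q_sub_smul, hqz₁, hqz₂, h12, polar_sub_left,
            polar_smul_left, w2, w3]
          simp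
        · rw [polar_add_right, polar_sub_right, polar_smul_right, hyz₁, hyz₂, w1]
          simp
      · refine ⟨z₂, ?_, hqz₂, hyz₂, k2⟩
        rintro rfl
        simp at k2
    · exact ⟨z₁, hz₁0, hqz₁, hyz₁, k1⟩
  -- the vector `v`
  obtain ⟨zs, hqzs, hzzs, hyzs⟩ := g2_partner hnd h2 hy hz0 hqz hyz
  obtain ⟨v₀, hv₀N, hv₀0⟩ := Cfsg.Agent.Lib.Helper50.Quad.exists_ne_zero
    (pN QK ![y, z, zs]) (by simpa using card_pN (QK := QK) ![y, z, zs] (j := 0) (by omega))
  rw [mem_pN] at hv₀N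
  have v1 : polar QK y v₀ = 0 := hv₀N 0
  have v2 : polar QK z v₀ = 0 := hv₀N 1
  have v3 : polar QK zs v₀ = 0 := hv₀N 2
  by_cases hqv₀ : QK v₀ = 0
  · obtain ⟨t, ht⟩ := qexists_dual QK hnd hv₀0
    obtain ⟨w, w1, w2, w3, w4⟩ := g2_proj3 h2 hy hqz hqzs hzzs hyz hyzs t
    have hvw : polar QK v₀ w = 1 := by rw [w4 v₀ v1 v2 v3, ht]
    by_cases hqw : QK w = 0
    · refine ⟨z, v₀ + w, hqz, hyz, hzp, ?_, ?_, ?_⟩
      · rw [polar_add_right, v1, w1, add_zero]
      · rw [polar_add_right, v2, w2, add_zero]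
      · rw [QuadraticMap.map_add QK, hqv₀, hqw, hvw]
        simp
    · exact ⟨z, w, hqz, hyz, hzp, w1, w2, hqw⟩
  · exact ⟨z, v₀, hqz, hyz, hzp, v1, v2, hqv₀⟩

end Cfsg.Agent.Lib.Helper17.C3O
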