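import Cfsg.Agent.Lib.Helper17.C3O.Defs
import Cfsg.Agent.Lib.Helper18.C3OGeo

set_option autoImplicit false
set_option linter.unusedSectionVars false
set_option linter.unusedVariables false

namespace Cfsg.Agent.Lib.Helper17.C3O

open QuadraticMap Module Cfsg.Agent.Lib.Helper95 Cfsg.Agent.Lib.Helper97.C3
  Cfsg.Agent.Lib.Helper97.OSub
open Cfsg.Agent.Lib.Helper49 hiding glEquiv glEquiv_apply
open Cfsg.Agent.Lib.Helper18.C3OGeo

variable {F K V : Type*} [Field F] [Fintype F] [Field K] [Fintype K] [Algebra F K]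
  [FiniteDimensional F K] [AddCommGroup V] [Module F V] [Module K V] [IsScalarTower F K V]
  [FiniteDimensional K V]
  {QK : QuadraticForm K V} {κ : K →ₗ[F] F} {Q : QuadraticForm F V} {M : Subgroup (OG Q)}

theorem exists_hyp_perp (hnd : (polarBilin QK).Nondegenerate) (hd : 5 ≤ finrank K V)
    {x y : V} (hx : QK x = 0) (hxy : polar QK x y ≠ 0) :
    ∃ b v, QK b = 0 ∧ QK v = 0 ∧ polar QK b v = 1 ∧ polar QK x b = 0 ∧ polar QK y b = 0 ∧
      polar QK x v = 0 ∧ polar QK y v = 0 := by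
  obtain ⟨b, hbN, hb0, hqb⟩ := Cfsg.Agent.Lib.Helper50.Quad.exists_singular (Q := QK)
    (pN QK ![x, y]) (card_pN _ (by omega))
  rw [mem_pN] at hbN
  have hxb : polar QK x b = 0 := hbN 0
  have hyb : polar QK y b = 0 := hbN 1
  obtain ⟨t, ht⟩ := qexists_dual QK hnd hb0
  obtain ⟨a, c, h1, h2⟩ := proj2 hx hxy t
  set t' := t - a • x - c • y with ht'
  have hbt' : polar QK b t' = 1 := by
    rw [ht', polar_sub_right, polar_sub_right, polar_smul_right, polar_smul_right,
      polar_comm QK b x, polar_comm QK b y, hxb, hyb, ht]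
    simp
  obtain ⟨k1, k2⟩ := partner_of_dual hqb hbt'
  refine ⟨b, t' - QK t' • b, hqb, k1, k2, hxb, hyb, ?_, ?_⟩
  · rw [polar_sub_right, polar_smul_right, h1, hxb]
    simp
  · rw [polar_sub_right, polar_smul_right, h2, hyb]
    simp

end Cfsg.Agent.Lib.Helper17.C3O
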