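import Cfsg.Agent.Lib.Helper17.C3O.Defs

set_option autoImplicit false
set_option linter.unusedSectionVars false
set_option linter.unusedVariables false

namespace Cfsg.Agent.Lib.Helper17.C3O

open QuadraticMap Module Cfsg.Agent.Lib.Helper95 Cfsg.Agent.Lib.Helper97.C3
  Cfsg.Agent.Lib.Helper97.OSub
open Cfsg.Agent.Lib.Helper49 hiding glEquiv glEquiv_apply

variable {F K V : Type*} [Field F] [Fintype F] [Field K] [Fintype K] [Algebra F K]
  [FiniteDimensional F K] [AddCommGroup V] [Module F V] [Module K V] [IsScalarTower F K V]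
  [FiniteDimensional K V]
  {QK : QuadraticForm K V} {κ : K →ₗ[F] F} {Q : QuadraticForm F V} {M : Subgroup (OG Q)}

theorem lrl_sg_apply (T : TF QK κ Q) {u w : V} (h : SPair Q u w) (v : V) :
    (sg h).1 v = v + algebraMap F K (κ (polar QK u v)) • w
      - algebraMap F K (κ (polar QK w v)) • u := by
  rw [sg_apply, T.polar_eq, T.polar_eq, algebraMap_smul, algebraMap_smul]

/-- dual bases of a quadratic extension with respect to `κ`. -/
theorem lrl_dual (T : TF QK κ Q) (hr2 : finrank F K = 2) :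
    ∃ θ e₁ e₂ : K, (∀ c : K, c = algebraMap F K (κ (e₁ * c)) + algebraMap F K (κ (e₂ * c)) * θ) ∧
      (∀ c : K, c = algebraMap F K (κ c) * e₁ + algebraMap F K (κ (θ * c)) * e₂) ∧
      e₁ + θ * e₂ ≠ 0 ∧ e₂ ≠ 0 := by
  obtain ⟨θ, hθ⟩ : ∃ θ : K, ∀ c : F, algebraMap F K c ≠ θ := by
    by_contra hcon
    push Not at hcon
    have hle : (⊤ : Submodule F K) ≤ Submodule.span F {(1 : K)} := by
      intro α _
      obtain ⟨c, hc⟩ := hcon α
      rw [Submodule.mem_span_singleton]
      exact ⟨c, by rw [← hc, Algebra.smul_def, mul_one]⟩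
    have h3 := Submodule.finrank_mono hle
    rw [finrank_span_singleton (one_ne_zero), finrank_top] at h3
    omega
  have hli : LinearIndependent F ![(1 : K), θ] := by
    rw [LinearIndependent.pair_iff]
    intro s t hst
    have ht : t = 0 := by
      by_contra ht
      apply hθ (-(t⁻¹ * s))
      have h1 : t • θ = -(s • (1 : K)) := by rw [eq_neg_iff_add_eq_zero, add_comm]; exact hst
      have h2 : θ = t⁻¹ • (t • θ) := by rw [smul_smul, inv_mul_cancel₀ ht, one_smul]
      rw [h2, h1, Algebra.smul_def, Algebra.smul_def, mul_one, map_neg, map_mul]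
      ring
    refine ⟨?_, ht⟩
    rw [ht, zero_smul, add_zero, Algebra.smul_def, mul_one] at hst
    exact (map_eq_zero _).mp hst
  let b := basisOfLinearIndependentOfCardEqFinrank hli (by simp [hr2])
  have hb0 : b 0 = 1 := by simp [b]
  have hb1 : b 1 = θ := by simp [b]
  obtain ⟨e₁, he₁⟩ := dualK T.hκ (b.coord 0)
  obtain ⟨e₂, he₂⟩ := dualK T.hκ (b.coord 1)
  have D1 : ∀ c : K, c = algebraMap F K (κ (e₁ * c)) + algebraMap F K (κ (e₂ * c)) * θ := by
    intro c
    have h := b.sum_repr c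
    rw [Fin.sum_univ_two, hb0, hb1] at h
    rw [← he₁, ← he₂, Basis.coord_apply, Basis.coord_apply]
    conv_lhs => rw [← h]
    rw [Algebra.smul_def, Algebra.smul_def, mul_one]
  have k11 : κ e₁ = 1 := by
    have := he₁ 1
    rw [mul_one, ← hb0, Basis.coord_apply, Basis.repr_self] at this
    simpa using this.symm
  have k1θ : κ (e₁ * θ) = 0 := by
    have := he₁ (b 1)
    rw [Basis.coord_apply, Basis.repr_self, hb1] at this
    simpa using this.symm
  have k21 : κ e₂ = 0 := by
    have := he₂ 1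
    rw [mul_one, ← hb0, Basis.coord_apply, Basis.repr_self] at this
    simpa using this.symm
  have k2θ : κ (e₂ * θ) = 1 := by
    have := he₂ (b 1)
    rw [Basis.coord_apply, Basis.repr_self, hb1] at this
    simpa using this.symm
  have hκs : ∀ (a : F) (c : K), κ (algebraMap F K a * c) = a * κ c := by
    intro a c
    rw [← Algebra.smul_def, map_smul, smul_eq_mul]
  have D2 : ∀ c : K, c = algebraMap F K (κ c) * e₁ + algebraMap F K (κ (θ * c)) * e₂ := by
    intro c
    apply T.eq_of_kappa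
    intro l
    have hl := D1 l
    set a := κ (e₁ * l)
    set a' := κ (e₂ * l)
    rw [hl]
    have x1 : (algebraMap F K a + algebraMap F K a' * θ) * c
        = algebraMap F K a * c + algebraMap F K a' * (θ * c) := by ring
    have x2 : (algebraMap F K a + algebraMap F K a' * θ) *
        (algebraMap F K (κ c) * e₁ + algebraMap F K (κ (θ * c)) * e₂)
        = algebraMap F K (a * κ c) * e₁ + algebraMap F K (a * κ (θ * c)) * e₂
          + algebraMap F K (a' * κ c) * (e₁ * θ) + algebraMap F K (a' * κ (θ * c)) * (e₂ * θ) := by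
      simp only [map_mul]; ring
    rw [x1, x2]
    simp only [map_add, hκs, k11, k1θ, k21, k2θ]
    ring
  refine ⟨θ, e₁, e₂, D1, D2, ?_, ?_⟩
  · intro h
    have h1 : κ (e₁ + θ * e₂) = 2 := by
      rw [map_add, k11, mul_comm, k2θ]; norm_num
    rw [h, map_zero] at h1
    exact T.two h1.symm
  · intro h
    rw [h, zero_mul, map_zero] at k2θ
    exact zero_ne_one k2θ

theorem LR_orth (T : TF QK κ Q) (hM : BigO T M) (hr2 : finrank F K = 2)
    (hP : ∀ x, QK x = 0 → PP K M x) {x₁ x₂ : V} (h1 : QK x₁ = 0) (h2 : QK x₂ = 0)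
    (h12 : polar QK x₁ x₂ = 0) : LR M x₁ x₂ := by
  obtain ⟨θ, e₁, e₂, D1, D2, hm, he₂⟩ := lrl_dual T hr2
  have h11 : polar QK x₁ x₁ = 0 := polar_self_of_Q h1
  have h22 : polar QK x₂ x₂ = 0 := polar_self_of_Q h2
  have h21 : polar QK x₂ x₁ = 0 := by rw [polar_comm]; exact h12
  set lam := (e₁ + θ * e₂)⁻¹ with hlam
  have hlm : lam * (e₁ + θ * e₂) = 1 := inv_mul_cancel₀ hm
  have hlam0 : lam ≠ 0 := inv_ne_zero hm
  set η := lam * e₂ with hη
  have hη0 : η ≠ 0 := mul_ne_zero hlam0 he₂
  set y := x₁ + η⁻¹ • x₂ with hy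
  have hqy : QK y = 0 := by
    rw [hy, qmap_add, QuadraticMap.map_smul, h1, h2, polar_smul_right, h12]; simp
  have ey1 : η • y = η • x₁ + x₂ := by
    rw [hy, smul_add, smul_smul, mul_inv_cancel₀ hη0, one_smul]
  have ey2 : (θ * η) • y = (θ * η) • x₁ + θ • x₂ := by
    rw [hy, smul_add, smul_smul, mul_assoc, mul_inv_cancel₀ hη0, mul_one]
  have L1 : LR M ((θ * η) • x₁ + θ • x₂) (η • x₁ + x₂) := by
    have := hP y hqy (θ * η) η
    rwa [ey1, ey2] at this
  have L2 : LR M (η • x₁) ((θ * η) • x₁) := hP x₁ h1 η (θ * η)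
  have L3 : LR M x₂ (θ • x₂) := by
    have := hP x₂ h2 1 θ
    rwa [one_smul] at this
  have hR : RPair QK x₁ (lam • x₂) := ⟨h1, by rw [polar_smul_right, h12, smul_zero]⟩
  obtain ⟨s1, m1⟩ := L1
  obtain ⟨s2, m2⟩ := L2
  obtain ⟨s3, m3⟩ := L3
  have s0 : SPair Q x₁ x₂ := ⟨by rw [T.hQ, h1, map_zero], by rw [T.hQ, h2, map_zero],
    by rw [T.polar_eq, h12, map_zero]⟩
  refine ⟨s0, ?_⟩
  have key : sg s0 = kE T hR * sg s1 * sg s2 * sg s3 := by
    apply OG_ext
    intro v
    simp only [Subgroup.coe_mul, LinearEquiv.mul_apply, lrl_sg_apply T, kE_apply,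
      polar_add_right, polar_sub_right, polar_smul_right, polar_add_left, polar_smul_left,
      h11, h12, h21, h22, smul_eq_mul, mul_zero, add_zero, sub_zero,
      QuadraticMap.map_smul, h2, zero_mul, zero_smul, map_add]
    set β₁ := polar QK x₁ v
    set β₂ := polar QK x₂ v
    have C1 : -algebraMap F K (κ β₂) = algebraMap F K (κ (θ * β₂)) * η
        - algebraMap F K (κ β₂) * θ * η - lam * β₂ := by
      have hD2 := D2 β₂
      linear_combination lam * hD2 + algebraMap F K (κ β₂) * hlm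
        - (algebraMap F K (κ (θ * β₂)) - algebraMap F K (κ β₂) * θ) * hη
    have C2 : algebraMap F K (κ β₁) = algebraMap F K (κ (θ * η * β₁))
        - algebraMap F K (κ (η * β₁)) * θ + lam * β₁ := by
      have hD1 := D1 (lam * β₁)
      have a1 : e₂ * (lam * β₁) = η * β₁ := by rw [hη]; ring
      rw [a1] at hD1
      have a2 : κ (θ * η * β₁) + κ (e₁ * (lam * β₁)) = κ β₁ := by
        rw [← map_add]
        congr 1
        linear_combination β₁ * hlm + θ * β₁ * hη
      have a2' := congrArg (algebraMap F K) a2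
      rw [map_add] at a2'
      linear_combination -hD1 - a2'
    linear_combination (norm := module) C2 • x₂ + C1 • x₁
  rw [key]
  exact M.mul_mem (M.mul_mem (M.mul_mem (kE_mem T hM hR) m1) m2) m3

end Cfsg.Agent.Lib.Helper17.C3O
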