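import Cfsg.Agent.Lib.Helper17.C3O.G0
import Cfsg.Agent.Lib.Helper18.C3OGeo
import Cfsg.Agent.Lib.Helper95.OmSiegGen

set_option autoImplicit false
set_option linter.unusedSectionVars false
set_option linter.unusedVariables false
set_option linter.unusedSimpArgs false

namespace Cfsg.Agent.Lib.Helper17.C3O

open QuadraticMap Module Cfsg.Agent.Lib.Helper95 Cfsg.Agent.Lib.Helper97.C3
  Cfsg.Agent.Lib.Helper97.OSub
open Cfsg.Agent.Lib.Helper49 hiding glEquiv glEquiv_apply

variable {F K V : Type*} [Field F] [Fintype F] [Field K] [Fintype K] [Algebra F K]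
  [FiniteDimensional F K] [AddCommGroup V] [Module F V] [Module K V] [IsScalarTower F K V]
  [FiniteDimensional K V]
  {QK : QuadraticForm K V} {κ : K →ₗ[F] F} {Q : QuadraticForm F V} {M : Subgroup (OG Q)}


theorem exists_not_nrm_comm (T : TF QK κ Q) (hr2 : 2 ≤ finrank F K) (hd : 3 ≤ finrank K V)
    (hn : 10 < finrank F V) : ∃ g ∈ commutator (OG Q), ¬ Nrm K g.1 := by
  have : FiniteDimensional F V := FiniteDimensional.trans F K V
  obtain ⟨z, -, hz0, hz⟩ := Cfsg.Agent.Lib.Helper50.Quad.exists_singular (Q := QK)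
    (Cfsg.Agent.Lib.Helper18.C3OGeo.pN QK (fun _ : Fin 0 => (0 : V)))
    (Cfsg.Agent.Lib.Helper18.C3OGeo.card_pN _ (by omega))
  obtain ⟨zs, hzs, h1⟩ := exists_partner T.nd hz0 hz
  have hzs0 : zs ≠ 0 := by
    rintro rfl
    simp at h1
  have hker : LinearMap.ker κ ≠ ⊥ := by
    apply LinearMap.ker_ne_bot_of_finrank_lt
    rw [Module.finrank_self]
    omega
  obtain ⟨l₁, hl₁, hl0⟩ := Submodule.exists_mem_ne_zero_of_ne_bot hker
  have hκl : κ l₁ = 0 := LinearMap.mem_ker.1 hl₁
  obtain ⟨l0, hl0'⟩ : ∃ l, κ l ≠ 0 := by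
    by_contra hc
    push Not at hc
    exact T.hκ (LinearMap.ext hc)
  obtain ⟨c, hc⟩ : ∃ c, κ c = 1 := ⟨(κ l0)⁻¹ • l0, by
    rw [map_smul, smul_eq_mul, inv_mul_cancel₀ hl0']⟩
  have hs : SPair Q z (l₁ • zs) := by
    refine ⟨by rw [T.hQ, hz, map_zero], by rw [T.hQ, QuadraticMap.map_smul, hzs, smul_zero, map_zero],
      ?_⟩
    rw [T.polar_eq, polar_smul_right, h1, smul_eq_mul, mul_one, hκl]
  refine ⟨sg hs, sg_mem_commutator T.ndF hn hs, ?_⟩
  intro hN
  -- a vector orthogonal to `z`, `zs`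
  let L : V →ₗ[K] (Fin 2 → K) := LinearMap.pi ![polarBilin QK z, polarBilin QK zs]
  have hkerL : LinearMap.ker L ≠ ⊥ := by
    apply LinearMap.ker_ne_bot_of_finrank_lt
    rw [Module.finrank_fin_fun]
    omega
  obtain ⟨u, hu, hu0⟩ := Submodule.exists_mem_ne_zero_of_ne_bot hkerL
  have hu1 : polar QK z u = 0 := by
    have := congrFun (LinearMap.mem_ker.1 hu) 0
    simpa [L] using this
  have hu2 : polar QK zs u = 0 := by
    have := congrFun (LinearMap.mem_ker.1 hu) 1
    simpa [L] using this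
  have hfix : ∀ a : K, (sg hs).1 (a • u) = a • u := by
    intro a
    rw [sg_apply, T.polar_eq, T.polar_eq, polar_smul_right, polar_smul_left, polar_smul_right, hu1,
      hu2]
    simp
  have key : ∀ a : K, ∃ e : F, e • (1 : K) = a := by
    intro a
    obtain ⟨b, hb⟩ := hN a
    have e1 := hb u
    have e2 := hfix 1
    rw [one_smul] at e2
    rw [hfix, e2] at e1
    have hab : a = b := smul_left_injective K hu0 e1
    subst hab
    have e3 := hb (c • zs)
    have p1 : ∀ m : K, polar Q z (m • zs) = κ m := fun m => by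
      rw [T.polar_eq, polar_smul_right, h1, smul_eq_mul, mul_one]
    have p2 : ∀ m : K, polar Q (l₁ • zs) (m • zs) = 0 := fun m => by
      rw [T.polar_eq, polar_smul_right, polar_smul_left, polar_self_of_Q hzs]
      simp
    rw [smul_smul, sg_apply, sg_apply, p1, p1, p2, p2, hc] at e3
    simp only [zero_smul, sub_zero, one_smul, smul_add, smul_smul] at e3
    have e4 := add_left_cancel e3
    refine ⟨κ (a * c), ?_⟩
    have e5 : ((κ (a * c) • (1 : K)) * l₁) • zs = (a * l₁) • zs := by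
      rw [← e4, smul_mul_assoc, one_mul, smul_assoc]
    have e6 := smul_left_injective K hzs0 e5
    exact mul_right_cancel₀ hl0 e6
  have := finrank_le_one (R := F) (1 : K) key
  omega

end Cfsg.Agent.Lib.Helper17.C3O
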