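import Cfsg.Agent.Lib.Helper17.C3O.Defs

set_option autoImplicit false
set_option linter.unusedSectionVars false
set_option linter.unusedVariables false

namespace Cfsg.Agent.Lib.Helper17.C3O

open QuadraticMap Module Cfsg.Agent.Lib.Helper95 Cfsg.Agent.Lib.Helper97.C3
  Cfsg.Agent.Lib.Helper97.OSub
open Cfsg.Agent.Lib.Helper49 hiding glEquiv glEquiv_apply

variable {F K V : Type*} [Field F] [Fintype F] [Field K] [Fintype K] [Algebra F K]
  [FiniteDimensional F K] [AddCommGroup V] [Module F V] [Module K V] [IsScalarTower F K V]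
  [FiniteDimensional K V]
  {QK : QuadraticForm K V} {κ : K →ₗ[F] F} {Q : QuadraticForm F V} {M : Subgroup (OG Q)}

theorem LR_six (T : TF QK κ Q) (hr : (finrank F K).Prime) (hr3 : 3 ≤ finrank F K)
    (hP : ∀ x, QK x = 0 → PP K M x) {z₁ z₂ : V} (h1 : QK z₁ = 0) (h2 : QK z₂ = 0)
    (hb : polar QK z₁ z₂ ≠ 0) (hf : polar Q z₁ z₂ = 0) : LR M z₁ z₂ := by
  set b := polar QK z₁ z₂ with hbdef
  have hb' : polar QK z₂ z₁ = b := by rw [polar_comm]
  have hκb : κ b = 0 := by rw [hbdef, ← T.polar_eq]; exact hf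
  let φ : K →ₗ[F] F := κ ∘ₗ LinearMap.mulRight F b
  have hφ : ∀ l, φ l = κ (l * b) := fun l => rfl
  set A := LinearMap.ker φ with hA
  have hmem : ∀ l, l ∈ A ↔ κ (l * b) = 0 := fun l => by rw [hA, LinearMap.mem_ker, hφ]
  have hA1 : finrank F K ≤ finrank F A + 1 := by
    have h := LinearMap.finrank_range_add_finrank_ker φ
    have h' : finrank F (LinearMap.range φ) ≤ 1 := by
      calc finrank F (LinearMap.range φ) ≤ finrank F F := Submodule.finrank_le _
        _ = 1 := finrank_self F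
    rw [hA]
    omega
  obtain ⟨α, hαA, hαF⟩ : ∃ α ∈ A, ∀ c : F, algebraMap F K c ≠ α := by
    by_contra hcon
    push Not at hcon
    have hle : A ≤ Submodule.span F {(1 : K)} := by
      intro α hα
      obtain ⟨c, hc⟩ := hcon α hα
      rw [Submodule.mem_span_singleton]
      exact ⟨c, by rw [← hc, Algebra.smul_def, mul_one]⟩
    have h3 := Submodule.finrank_mono hle
    rw [finrank_span_singleton (one_ne_zero)] at h3
    omega
  have hA0 : A ≠ ⊥ := by
    intro h
    have : (1 : K) ∈ A := by rw [hmem, one_mul]; exact hκb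
    rw [h, Submodule.mem_bot] at this
    exact one_ne_zero this
  have hAtop : A ≠ ⊤ := by
    intro h
    apply hb
    apply T.eq_zero_of_kappa
    intro l
    rw [← hmem, h]
    exact Submodule.mem_top
  obtain ⟨γ, hγA, hγ⟩ : ∃ γ ∈ A, α * γ ∉ A := by
    by_contra hcon
    push Not at hcon
    obtain ⟨c, hc⟩ := stab_eq_bot hr A hA0 hAtop α hcon
    exact hαF c hc
  rw [hmem] at hγ hγA hαA
  set t := κ (α * γ * b) with ht
  set γ' : K := t⁻¹ • γ with hγ'
  have e1 : κ (γ' * b) = 0 := by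
    rw [hγ', smul_mul_assoc, map_smul, hγA, smul_zero]
  have e2 : κ (γ' * (α * b)) = 1 := by
    have : γ' * (α * b) = t⁻¹ • (α * γ * b) := by
      rw [hγ', smul_mul_assoc]; congr 1; ring
    rw [this, map_smul, ← ht, smul_eq_mul, inv_mul_cancel₀ hγ]
  have L1 : LR M z₁ (α • z₁) := by
    have := hP z₁ h1 1 α
    rwa [one_smul] at this
  have L2 : LR M z₂ (γ' • z₂) := by
    have := hP z₂ h2 1 γ'
    rwa [one_smul] at this
  apply LR.prop L1 L2
  · rw [polar_comm]; exact hf
  · rw [T.polar_eq, polar_smul_right, hb', smul_eq_mul]; exact hαA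
  · rw [T.polar_eq, polar_smul_left, hb', smul_eq_mul]; exact e1
  · rw [T.polar_eq, polar_smul_left, polar_smul_right, hb', smul_eq_mul, smul_eq_mul]; exact e2

end Cfsg.Agent.Lib.Helper17.C3O
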