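import Cfsg.Agent.Lib.Helper17.C3O.G5

set_option autoImplicit false
set_option linter.unusedSectionVars false
set_option linter.unusedVariables false

namespace Cfsg.Agent.Lib.Helper17.C3O

open QuadraticMap Module Cfsg.Agent.Lib.Helper95 Cfsg.Agent.Lib.Helper97.C3
  Cfsg.Agent.Lib.Helper97.OSub
open Cfsg.Agent.Lib.Helper49 hiding glEquiv glEquiv_apply

variable {F K V : Type*} [Field F] [Fintype F] [Field K] [Fintype K] [Algebra F K]
  [FiniteDimensional F K] [AddCommGroup V] [Module F V] [Module K V] [IsScalarTower F K V]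
  [FiniteDimensional K V]
  {QK : QuadraticForm K V} {κ : K →ₗ[F] F} {Q : QuadraticForm F V} {M : Subgroup (OG Q)}

theorem LR_six_two (T : TF QK κ Q) (hd : 5 ≤ finrank K V)
    (hL : ∀ x₁ x₂, QK x₁ = 0 → QK x₂ = 0 → polar QK x₁ x₂ = 0 → LR M x₁ x₂) {z₁ z₂ : V}
    (h1 : QK z₁ = 0) (h2 : QK z₂ = 0) (hb : polar QK z₁ z₂ ≠ 0) (hf : polar Q z₁ z₂ = 0) :
    LR M z₁ z₂ := by
  obtain ⟨b, v, hqb, hqv, hbv, h1b, h2b, h1v, h2v⟩ := exists_hyp_perp T.nd hd h1 hb
  obtain ⟨c, hc⟩ : ∃ c : K, κ c = 1 := by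
    obtain ⟨l, hl⟩ : ∃ l, κ l ≠ 0 := by
      by_contra hcon
      push Not at hcon
      exact T.hκ (LinearMap.ext hcon)
    exact ⟨(κ l)⁻¹ • l, by rw [map_smul, smul_eq_mul, inv_mul_cancel₀ hl]⟩
  have L1 : LR M z₁ b := hL z₁ b h1 hqb h1b
  have L2 : LR M z₂ (c • v) := hL z₂ (c • v) h2 (by rw [QuadraticMap.map_smul, hqv, smul_zero])
    (by rw [polar_smul_right, h2v, smul_zero])
  apply LR.prop L1 L2
  · rw [polar_comm]; exact hf
  · rw [T.polar_eq, h2b, map_zero]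
  · rw [T.polar_eq, polar_smul_left, polar_comm, h1v, smul_zero, map_zero]
  · rw [T.polar_eq, polar_smul_left, polar_comm, hbv, smul_eq_mul, mul_one]; exact hc

end Cfsg.Agent.Lib.Helper17.C3O
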