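import Cfsg.Agent.Lib.Helper17.C3O.Defs
import Cfsg.Agent.Lib.Helper97.C3.SPREAD

set_option autoImplicit false
set_option linter.unusedSectionVars false
set_option linter.unusedVariables false

namespace Cfsg.Agent.Lib.Helper17.C3O

open QuadraticMap Module Cfsg.Agent.Lib.Helper95 Cfsg.Agent.Lib.Helper97.C3
  Cfsg.Agent.Lib.Helper97.OSub
open Cfsg.Agent.Lib.Helper49 hiding glEquiv glEquiv_apply

variable {F K V : Type*} [Field F] [Fintype F] [Field K] [Fintype K] [Algebra F K]
  [FiniteDimensional F K] [AddCommGroup V] [Module F V] [Module K V] [IsScalarTower F K V]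
  [FiniteDimensional K V]
  {QK : QuadraticForm K V} {κ : K →ₗ[F] F} {Q : QuadraticForm F V} {M : Subgroup (OG Q)}

omit [Fintype F] [Field F] [Algebra F K] [FiniteDimensional F K] [Module F V]
  [IsScalarTower F K V] in
private lemma spro_card (hd : 3 ≤ finrank K V) :
    Fintype.card K ^ 2 < Nat.card (⊤ : Submodule K V) := by
  have h1 : Nat.card (⊤ : Submodule K V) = Fintype.card K ^ finrank K V := by
    rw [Nat.card_congr (Submodule.topEquiv (R := K) (M := V)).toEquiv,
      Module.natCard_eq_pow_finrank (K := K) (V := V), Nat.card_eq_fintype_card]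
  rw [h1]
  exact Nat.pow_lt_pow_right Fintype.one_lt_card (by omega)

omit [Fintype F] [Field F] [Algebra F K] [FiniteDimensional F K] [Module F V]
  [IsScalarTower F K V] in
/-- the orthogonal complement of a non-singular vector represents everything -/
private lemma spro_norm (hnd : (polarBilin QK).Nondegenerate) (h2 : (2 : K) ≠ 0)
    (hd : 3 ≤ finrank K V) {a : V} (ha : QK a ≠ 0) (c : K) :
    ∃ n, polar QK a n = 0 ∧ QK n = c := by
  set N : Submodule K V := LinearMap.ker (QK.polarBilin a) with hN
  have hmemN : ∀ v, v ∈ N ↔ polar QK a v = 0 := fun v => by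
    rw [hN, LinearMap.mem_ker, polarBilin_apply_apply]
  have hfin : 2 ≤ finrank K N := by
    have h1 : finrank K (LinearMap.range (QK.polarBilin a)) + finrank K N = finrank K V :=
      LinearMap.finrank_range_add_finrank_ker (QK.polarBilin a)
    have h3 : finrank K (LinearMap.range (QK.polarBilin a)) ≤ 1 := by
      have := Submodule.finrank_le (LinearMap.range (QK.polarBilin a))
      rwa [finrank_self] at this
    omega
  have hcard : Fintype.card K < Nat.card N := by
    rw [Module.natCard_eq_pow_finrank (K := K) (V := N), Nat.card_eq_fintype_card]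
    calc Fintype.card K = Fintype.card K ^ 1 := (pow_one _).symm
      _ < Fintype.card K ^ finrank K N := Nat.pow_lt_pow_right Fintype.one_lt_card (by omega)
  by_cases han : ∀ e ∈ N, e ≠ 0 → QK e ≠ 0
  · obtain ⟨w, hw, hwc⟩ := Cfsg.Agent.Lib.Helper50.Quad.exists_value N hcard han c
    exact ⟨w, (hmemN w).1 hw, hwc⟩
  · push Not at han
    obtain ⟨e, heN, he0, heq⟩ := han
    have hae : polar QK a e = 0 := (hmemN e).1 heN
    obtain ⟨t, ht⟩ := qexists_dual QK hnd he0
    have haa : polar QK a a = 2 * QK a := by rw [polar_self]; simp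
    have haa0 : polar QK a a ≠ 0 := by rw [haa]; exact mul_ne_zero h2 ha
    set t' := t - (polar QK a t / polar QK a a) • a with ht'
    have h1 : polar QK a t' = 0 := by
      rw [ht', polar_sub_right, polar_smul_right, smul_eq_mul]
      field_simp
      ring
    have h3 : polar QK e t' = 1 := by
      rw [ht', polar_sub_right, polar_smul_right, polar_comm QK e a, hae, ht]
      simp
    refine ⟨(c - QK t') • e + t', ?_, ?_⟩
    · rw [polar_add_right, polar_smul_right, hae, h1]; simp
    · rw [QuadraticMap.map_add QK, QuadraticMap.map_smul, heq, polar_smul_left, h3]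
      simp

omit [Fintype F] [Field F] [Algebra F K] [FiniteDimensional F K] [Module F V]
  [IsScalarTower F K V] in
/-- two independent vectors of the same norm in the orthogonal complement of `a` -/
private lemma spro_two (hnd : (polarBilin QK).Nondegenerate) (h2 : (2 : K) ≠ 0)
    (hK : 3 < Fintype.card K) (hd : 3 ≤ finrank K V) {a : V} (ha : QK a ≠ 0) {c : K} (hc : c ≠ 0) :
    ∃ n₁ n₂, polar QK a n₁ = 0 ∧ QK n₁ = c ∧ polar QK a n₂ = 0 ∧ QK n₂ = c ∧
      ∀ γ : K, n₂ ≠ γ • n₁ := by
  obtain ⟨n₁, h1, hq1⟩ := spro_norm hnd h2 hd ha c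
  obtain ⟨t, -, ht0, hat, hnt⟩ := Cfsg.Agent.Lib.Helper50.Quad.exists_ker_two (⊤ : Submodule K V)
    (spro_card hd) (QK.polarBilin a) (QK.polarBilin n₁)
  rw [polarBilin_apply_apply] at hat hnt
  have hnn : polar QK n₁ n₁ = 2 * c := by rw [polar_self, hq1]; simp
  have htn : ∀ γ : K, t ≠ γ • n₁ := by
    intro γ h
    rw [h, polar_smul_right, hnn, smul_eq_mul] at hnt
    have hγ : γ = 0 := by
      rcases mul_eq_zero.1 hnt with h3 | h3
      · exact h3
      · exact absurd h3 (mul_ne_zero h2 hc)
    rw [hγ, zero_smul] at h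
    exact ht0 h
  -- choose `k`
  obtain ⟨k, hk0, hk⟩ : ∃ k : K, k ≠ 0 ∧ c + k ^ 2 * QK t ≠ 0 := by
    classical
    by_cases h3 : c + QK t = 0
    · obtain ⟨k₀, hk₀⟩ : ∃ k₀ : K, k₀ ∉ ({0, 1, -1} : Finset K) := by
        by_contra hcon
        push Not at hcon
        have h4 : (Finset.univ : Finset K) ⊆ {0, 1, -1} := fun x _ => hcon x
        have h5 := Finset.card_le_card h4
        have h6 : ({0, 1, -1} : Finset K).card ≤ 3 := Finset.card_le_three
        rw [Finset.card_univ] at h5
        omega
      simp only [Finset.mem_insert, Finset.mem_singleton, not_or] at hk₀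
      refine ⟨k₀, hk₀.1, ?_⟩
      have h7 : QK t = -c := by linear_combination h3
      rw [h7]
      intro h8
      have h9 : c * ((1 - k₀) * (1 + k₀)) = 0 := by linear_combination h8
      rcases mul_eq_zero.1 h9 with h | h
      · exact hc h
      · rcases mul_eq_zero.1 h with h | h
        · exact hk₀.2.1 (by linear_combination -h)
        · exact hk₀.2.2 (by linear_combination h)
    · exact ⟨1, one_ne_zero, by simpa using h3⟩
  set μ : K := 2 * c / (c + k ^ 2 * QK t) with hμ
  have hμ0 : μ ≠ 0 := div_ne_zero (mul_ne_zero h2 hc) hk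
  refine ⟨n₁, (1 - μ) • n₁ + (-(μ * k)) • t, h1, hq1, ?_, ?_, ?_⟩
  · rw [polar_add_right, polar_smul_right, polar_smul_right, h1, hat]; simp
  · rw [QuadraticMap.map_add QK, QuadraticMap.map_smul, QuadraticMap.map_smul, polar_smul_left,
      polar_smul_right, hnt, hq1]
    simp only [smul_eq_mul, mul_zero, add_zero]
    have h3 : μ * (c + k ^ 2 * QK t) = 2 * c := by rw [hμ]; field_simp
    linear_combination μ * h3
  · intro γ h
    apply htn ((μ * k)⁻¹ * (1 - μ - γ))
    have h3 : (μ * k) • t = (1 - μ - γ) • n₁ := by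
      have : (1 - μ) • n₁ + (-(μ * k)) • t - γ • n₁ = 0 := by rw [h, sub_self]
      have h4 : (μ * k) • t = (1 - μ - γ) • n₁ - ((1 - μ) • n₁ + (-(μ * k)) • t - γ • n₁) := by
        module
      rw [h4, this, sub_zero]
    rw [mul_smul, ← h3, smul_smul, inv_mul_cancel₀ (mul_ne_zero hμ0 hk0), one_smul]

/-- RUNG SPRO -/
theorem exists_sing_not_point (T : TF QK κ Q) (hK : 3 < Fintype.card K) (hd : 3 ≤ finrank K V)
    (g : OG Q) (hg : ¬ Nrm K g.1) :
    ∃ x₀, x₀ ≠ 0 ∧ QK x₀ = 0 ∧ ∀ y, (kpt F K x₀).map g.1.toLinearMap ≠ kpt F K y := by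
  by_contra hcon
  push Not at hcon
  apply hg
  have : FiniteDimensional F V := FiniteDimensional.trans F K V
  have h2 := T.twoK
  have hinj : Function.Injective g.1.toLinearMap := g.1.injective
  -- good subspaces
  let Good : Submodule K V → Prop := fun H =>
    ∃ U : Submodule K V, (H.restrictScalars F).map g.1.toLinearMap = U.restrictScalars F
  have good_sing : ∀ x, x ≠ 0 → QK x = 0 → Good (Submodule.span K {x}) := by
    intro x hx0 hx
    obtain ⟨y, hy⟩ := hcon x hx0 hx
    exact ⟨Submodule.span K {y}, hy⟩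
  have good_sup : ∀ H₁ H₂, Good H₁ → Good H₂ → Good (H₁ ⊔ H₂) := by
    rintro H₁ H₂ ⟨U₁, h1⟩ ⟨U₂, h3⟩
    exact ⟨U₁ ⊔ U₂, by
      rw [Submodule.restrictScalars_sup, Submodule.map_sup, h1, h3, Submodule.restrictScalars_sup]⟩
  have good_inf : ∀ H₁ H₂, Good H₁ → Good H₂ → Good (H₁ ⊓ H₂) := by
    rintro H₁ H₂ ⟨U₁, h1⟩ ⟨U₂, h3⟩
    exact ⟨U₁ ⊓ U₂, by
      rw [Submodule.restrictScalars_inf, Submodule.map_inf _ hinj, h1, h3,
        Submodule.restrictScalars_inf]⟩
  have good_ns : ∀ a, QK a ≠ 0 → Good (Submodule.span K {a}) := by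
    intro a ha
    obtain ⟨n₁, n₂, h1, hq1, h3, hq2, hind⟩ :=
      spro_two T.nd h2 hK hd ha (c := -QK a) (neg_ne_zero.2 ha)
    have haa : polar QK a a = 2 * QK a := by rw [polar_self]; simp
    have sing : ∀ n, polar QK a n = 0 → QK n = -QK a → QK (a + n) = 0 ∧ QK (a - n) = 0 := by
      intro n hn hq
      constructor
      · rw [QuadraticMap.map_add QK, hq, hn]; ring
      · rw [sub_eq_add_neg, QuadraticMap.map_add QK, QuadraticMap.map_neg, hq, polar_neg_right, hn]
        ring
    have ne0 : ∀ n, polar QK a n = 0 → a + n ≠ 0 ∧ a - n ≠ 0 := by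
      intro n hn
      constructor
      · intro h
        have : polar QK a (a + n) = 0 := by rw [h]; simp
        rw [polar_add_right, hn, haa, add_zero] at this
        exact mul_ne_zero h2 ha this
      · intro h
        have : polar QK a (a - n) = 0 := by rw [h]; simp
        rw [polar_sub_right, hn, haa, sub_zero] at this
        exact mul_ne_zero h2 ha this
    have gl : ∀ n, polar QK a n = 0 → QK n = -QK a →
        Good (Submodule.span K {a + n} ⊔ Submodule.span K {a - n}) := fun n hn hq =>
      good_sup _ _ (good_sing _ (ne0 n hn).1 (sing n hn hq).1)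
        (good_sing _ (ne0 n hn).2 (sing n hn hq).2)
    have key : Submodule.span K {a} =
        (Submodule.span K {a + n₁} ⊔ Submodule.span K {a - n₁}) ⊓
          (Submodule.span K {a + n₂} ⊔ Submodule.span K {a - n₂}) := by
      apply le_antisymm
      · rw [Submodule.span_singleton_le_iff_mem]
        have hmem : ∀ n, a ∈ Submodule.span K {a + n} ⊔ Submodule.span K {a - n} := by
          intro n
          have e : a = (2⁻¹ : K) • (a + n) + (2⁻¹ : K) • (a - n) := by
            have : (2⁻¹ : K) + 2⁻¹ = 1 := by field_simp; norm_num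
            calc a = ((2⁻¹ : K) + 2⁻¹) • a := by rw [this, one_smul]
              _ = _ := by module
          have hm : (2⁻¹ : K) • (a + n) + (2⁻¹ : K) • (a - n) ∈
              Submodule.span K {a + n} ⊔ Submodule.span K {a - n} :=
            Submodule.add_mem_sup (Submodule.smul_mem _ _ (Submodule.mem_span_singleton_self _))
              (Submodule.smul_mem _ _ (Submodule.mem_span_singleton_self _))
          rwa [← e] at hm
        exact ⟨hmem n₁, hmem n₂⟩
      · rintro v ⟨hv1, hv2⟩
        obtain ⟨y₁, hy₁, z₁, hz₁, e1⟩ := Submodule.mem_sup.1 hv1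
        obtain ⟨y₂, hy₂, z₂, hz₂, e2⟩ := Submodule.mem_sup.1 hv2
        obtain ⟨α, rfl⟩ := Submodule.mem_span_singleton.1 hy₁
        obtain ⟨α', rfl⟩ := Submodule.mem_span_singleton.1 hz₁
        obtain ⟨γ, rfl⟩ := Submodule.mem_span_singleton.1 hy₂
        obtain ⟨γ', rfl⟩ := Submodule.mem_span_singleton.1 hz₂
        have p1 : polar QK a v = (α + α') * (2 * QK a) := by
          rw [← e1]
          simp only [polar_add_right, polar_smul_right, polar_sub_right, h1, haa, smul_eq_mul]
          ring
        have p2 : polar QK a v = (γ + γ') * (2 * QK a) := by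
          rw [← e2]
          simp only [polar_add_right, polar_smul_right, polar_sub_right, h3, haa, smul_eq_mul]
          ring
        have p3 : α + α' = γ + γ' :=
          mul_right_cancel₀ (mul_ne_zero h2 ha) (p1.symm.trans p2)
        have p4 : (γ - γ') • n₂ = (α - α') • n₁ := by
          have e3 : α • (a + n₁) + α' • (a - n₁) = γ • (a + n₂) + γ' • (a - n₂) := e1.trans e2.symm
          have e4 : (γ - γ') • n₂ = (α - α') • n₁ + ((α + α') - (γ + γ')) • a -
              (α • (a + n₁) + α' • (a - n₁) - (γ • (a + n₂) + γ' • (a - n₂))) := by module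
          rw [e4, e3, p3]
          simp
        have p5 : γ - γ' = 0 := by
          by_contra hne
          apply hind ((γ - γ')⁻¹ * (α - α'))
          rw [mul_smul, ← p4, smul_smul, inv_mul_cancel₀ hne, one_smul]
        rw [Submodule.mem_span_singleton]
        refine ⟨γ + γ', ?_⟩
        rw [← e2]
        have : γ' = γ := by linear_combination -p5
        rw [this]
        module
    rw [key]
    exact good_inf _ _ (gl n₁ h1 hq1) (gl n₂ h3 hq2)
  apply nrm_of_points (by omega) g.1
  intro x
  by_cases hx0 : x = 0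
  · refine ⟨0, ?_⟩
    have : kpt F K (0 : V) = ⊥ := by
      rw [eq_bot_iff]
      intro y hy
      obtain ⟨a, rfl⟩ := mem_kpt.1 hy
      simp
    rw [hx0, this, Submodule.map_bot]
  by_cases hx : QK x = 0
  · exact hcon x hx0 hx
  obtain ⟨U, hU⟩ := good_ns x hx
  refine ⟨g.1 x, ?_⟩
  change (kpt F K x).map g.1.toLinearMap = U.restrictScalars F at hU
  rw [hU]
  symm
  have hgx : g.1 x ≠ 0 := fun h => hx0 (by simpa using h)
  have hmem : g.1 x ∈ U := by
    have : g.1 x ∈ U.restrictScalars F := by
      rw [← hU]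
      exact ⟨x, self_mem_kpt x, rfl⟩
    exact this
  apply Submodule.eq_of_le_of_finrank_eq
  · intro y hy
    obtain ⟨a, rfl⟩ := mem_kpt.1 hy
    exact U.smul_mem a hmem
  · rw [finrank_kpt hgx, ← hU, LinearEquiv.finrank_map_eq, finrank_kpt hx0]

end Cfsg.Agent.Lib.Helper17.C3O
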