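import Cfsg.Agent.Lib.Helper17.C3O.Defs
import Cfsg.Agent.Lib.Helper18.C3OGeo
import Cfsg.Agent.Lib.Helper17.C3O.G2

set_option autoImplicit false
set_option linter.unusedSectionVars false
set_option linter.unusedVariables false

namespace Cfsg.Agent.Lib.Helper17.C3O

open QuadraticMap Module Cfsg.Agent.Lib.Helper95 Cfsg.Agent.Lib.Helper97.C3
  Cfsg.Agent.Lib.Helper97.OSub
open Cfsg.Agent.Lib.Helper49 hiding glEquiv glEquiv_apply
open Cfsg.Agent.Lib.Helper18.C3OGeo

variable {F K V : Type*} [Field F] [Fintype F] [Field K] [Fintype K] [Algebra F K]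
  [FiniteDimensional F K] [AddCommGroup V] [Module F V] [Module K V] [IsScalarTower F K V]
  [FiniteDimensional K V]
  {QK : QuadraticForm K V} {κ : K →ₗ[F] F} {Q : QuadraticForm F V} {M : Subgroup (OG Q)}

theorem exists_cfg (T : TF QK κ Q) (hd : 4 ≤ finrank K V) (hM : BigO T M) (g : OG Q) (hg : g ∈ M)
    {x₀ : V} (hx₀ : x₀ ≠ 0) (hq : QK x₀ = 0)
    (hnp : ∀ y, (kpt F K x₀).map g.1.toLinearMap ≠ kpt F K y) :
    ∃ x g' x₀', Cfg QK M x g' x₀' := by
  have hfd : FiniteDimensional F V := Module.Finite.trans K V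
  set P' := (kpt F K x₀).map g.1.toLinearMap with hP'
  have hy'P : g.1 x₀ ∈ P' := ⟨x₀, self_mem_kpt x₀, rfl⟩
  have hy'0 : g.1 x₀ ≠ 0 := by
    intro h
    exact hx₀ (g.1.map_eq_zero_iff.1 h)
  by_cases hqy : QK (g.1 x₀) = 0
  · refine ⟨g.1 x₀, g, x₀, hy'0, hqy, hx₀, hq, hg, (hnp _).symm, ?_⟩
    intro h
    have : g.1 x₀ ∈ kpt F K (g.1 x₀) ⊓ (kpt F K x₀).map g.1.toLinearMap :=
      Submodule.mem_inf.2 ⟨self_mem_kpt _, hy'P⟩
    rw [h] at this
    exact hy'0 ((Submodule.mem_bot F).1 this)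
  -- `P'` is totally singular
  have hts : ∀ a ∈ P', ∀ b ∈ P', polar Q a b = 0 := by
    rintro _ ⟨a, ha, rfl⟩ _ ⟨b, hb, rfl⟩
    obtain ⟨l, rfl⟩ := mem_kpt.1 ha
    obtain ⟨l', rfl⟩ := mem_kpt.1 hb
    change polar Q (g.1 (l • x₀)) (g.1 (l' • x₀)) = 0
    rw [OG_polar, T.polar_eq, polar_smul_left, polar_smul_right, polar_self', hq]
    simp
  -- a vector of `P'` outside `K y'`
  obtain ⟨p, hpP, hp⟩ : ∃ p ∈ P', p ∉ Submodule.span K {g.1 x₀} := by
    by_contra hcon
    push Not at hcon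
    have hle : P' ≤ kpt F K (g.1 x₀) := fun p hp => hcon p hp
    apply hnp (g.1 x₀)
    apply Submodule.eq_of_le_of_finrank_eq hle
    rw [hP', LinearEquiv.finrank_map_eq, finrank_kpt hx₀, finrank_kpt hy'0]
  obtain ⟨z, v, hqz, hyz, hzp, hyv, hzv, hqv⟩ := exists_start_pair T.nd T.twoK hd hqy hp
  have hR : ∀ l : K, RPair QK z (l • v) := fun l =>
    ⟨hqz, by rw [polar_smul_right, hzv, smul_zero]⟩
  have hfix : ∀ l : K, (kE T (hR l)).1 (g.1 x₀) = g.1 x₀ := by
    intro l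
    rw [kE_apply, polar_comm QK z, hyz, polar_smul_left, polar_comm QK v, hyv]
    simp
  by_cases hall : ∀ l : K, P'.map (kE T (hR l)).1.toLinearMap = P'
  · exfalso
    have hn : ∀ l : K, (kE T (hR l)).1 p - p ∈ P' := by
      intro l
      refine P'.sub_mem ?_ hpP
      rw [← hall l]
      exact ⟨p, hpP, rfl⟩
    have hform : ∀ l : K, ∃ c : K, (kE T (hR l)).1 p - p = (polar QK z p * l) • v + c • z := by
      intro l
      refine ⟨- polar QK (l • v) p - QK (l • v) * polar QK z p, ?_⟩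
      rw [kE_apply]
      module
    have hzero : (2 * QK v * polar QK z p * polar QK z p : K) = 0 := by
      apply T.eq_zero_of_kappa
      intro l
      have h1 := hts _ (hn l) _ (hn 1)
      obtain ⟨c, hc⟩ := hform l
      obtain ⟨c', hc'⟩ := hform 1
      rw [hc, hc', T.polar_eq] at h1
      simp only [polar_add_left, polar_add_right, polar_smul_left, polar_smul_right, polar_self',
        hqz, hzv, polar_comm QK v z, smul_eq_mul] at h1
      rw [← h1]
      congr 1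
      ring
    have : (2 * QK v * polar QK z p * polar QK z p : K) ≠ 0 :=
      mul_ne_zero (mul_ne_zero (mul_ne_zero T.twoK hqv) hzp) hzp
    exact this hzero
  · push Not at hall
    obtain ⟨l, hl⟩ := hall
    set t := kE T (hR l) with ht
    have htM : t ∈ M := kE_mem T hM (hR l)
    have happ : ∀ w, (g⁻¹ * t * g).1 w = (g⁻¹).1 (t.1 (g.1 w)) := fun w => rfl
    have hginv : ∀ w, g.1 ((g⁻¹).1 w) = w := by
      intro w
      change (g * g⁻¹).1 w = w
      rw [mul_inv_cancel]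
      rfl
    have hginv' : ∀ w, (g⁻¹).1 (g.1 w) = w := by
      intro w
      change (g⁻¹ * g).1 w = w
      rw [inv_mul_cancel]
      rfl
    refine ⟨x₀, g⁻¹ * t * g, x₀, hx₀, hq, hx₀, hq, M.mul_mem (M.mul_mem (M.inv_mem hg) htM) hg,
      ?_, ?_⟩
    · intro h
      apply hl
      apply le_antisymm
      · rintro _ ⟨_, ⟨w, hw, rfl⟩, rfl⟩
        have h1 : (g⁻¹ * t * g).1 w ∈ kpt F K x₀ := by
          rw [h]
          exact ⟨w, hw, rfl⟩
        refine ⟨_, h1, ?_⟩
        change g.1 ((g⁻¹ * t * g).1 w) = _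
        rw [happ, hginv]
        rfl
      · rintro _ ⟨w, hw, rfl⟩
        rw [h] at hw
        obtain ⟨w', hw', rfl⟩ := hw
        refine ⟨g.1 w', ⟨w', hw', rfl⟩, ?_⟩
        change t.1 (g.1 w') = g.1 ((g⁻¹ * t * g).1 w')
        rw [happ, hginv]
    · intro h
      have : x₀ ∈ kpt F K x₀ ⊓ (kpt F K x₀).map (g⁻¹ * t * g).1.toLinearMap := by
        refine Submodule.mem_inf.2 ⟨self_mem_kpt _, x₀, self_mem_kpt _, ?_⟩
        change (g⁻¹ * t * g).1 x₀ = x₀
        rw [happ, ht, hfix l, hginv']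
      rw [h] at this
      exact hx₀ ((Submodule.mem_bot F).1 this)

end Cfsg.Agent.Lib.Helper17.C3O
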