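import Cfsg.Agent.Lib.Helper17.C3O.G0

set_option autoImplicit false
set_option linter.unusedSectionVars false
set_option linter.unusedVariables false
set_option linter.unusedSimpArgs false

namespace Cfsg.Agent.Lib.Helper17.C3O

open QuadraticMap Module Cfsg.Agent.Lib.Helper95 Cfsg.Agent.Lib.Helper97.C3
  Cfsg.Agent.Lib.Helper97.OSub
open Cfsg.Agent.Lib.Helper49 hiding glEquiv glEquiv_apply

variable {F K V : Type*} [Field F] [Fintype F] [Field K] [Fintype K] [Algebra F K]
  [FiniteDimensional F K] [AddCommGroup V] [Module F V] [Module K V] [IsScalarTower F K V]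
  [FiniteDimensional K V]
  {QK : QuadraticForm K V} {κ : K →ₗ[F] F} {Q : QuadraticForm F V} {M : Subgroup (OG Q)}


private lemma trans_nonsing (hnd : (polarBilin QK).Nondegenerate) (hd : 3 ≤ finrank K V) {x₀ x : V}
    (hq : QK x₀ = 0) (hx : QK x = 0) (hb : polar QK x₀ x ≠ 0) :
    ∃ w, polar QK x₀ w = 0 ∧ polar QK x w = 0 ∧ QK w ≠ 0 := by
  let L : V →ₗ[K] (Fin 2 → K) := LinearMap.pi ![polarBilin QK x₀, polarBilin QK x]
  have hker : LinearMap.ker L ≠ ⊥ := by
    apply LinearMap.ker_ne_bot_of_finrank_lt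
    rw [Module.finrank_fin_fun]
    omega
  obtain ⟨u, hu, hu0⟩ := Submodule.exists_mem_ne_zero_of_ne_bot hker
  have hu1 : polar QK x₀ u = 0 := by
    have := congrFun (LinearMap.mem_ker.1 hu) 0
    simpa [L] using this
  have hu2 : polar QK x u = 0 := by
    have := congrFun (LinearMap.mem_ker.1 hu) 1
    simpa [L] using this
  by_cases hqu : QK u = 0
  · obtain ⟨t, ht⟩ := qexists_dual QK hnd hu0
    have hb' : polar QK x x₀ = polar QK x₀ x := polar_comm _ _ _
    obtain ⟨t', ht'⟩ : ∃ t', t' = t - (polar QK x t / polar QK x₀ x) • x₀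
      - (polar QK x₀ t / polar QK x₀ x) • x := ⟨_, rfl⟩
    have h1 : polar QK x₀ t' = 0 := by
      rw [ht', polar_sub_right, polar_sub_right, polar_smul_right, polar_smul_right,
        polar_self_of_Q hq, smul_eq_mul, smul_eq_mul]
      field_simp
      ring
    have h2 : polar QK x t' = 0 := by
      rw [ht', polar_sub_right, polar_sub_right, polar_smul_right, polar_smul_right,
        polar_self_of_Q hx, hb', smul_eq_mul, smul_eq_mul]
      field_simp
      ring
    have h3 : polar QK u t' = 1 := by
      rw [ht', polar_sub_right, polar_sub_right, polar_smul_right, polar_smul_right, ht,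
        polar_comm QK u x₀, polar_comm QK u x, hu1, hu2]
      simp
    by_cases hqt : QK t' = 0
    · refine ⟨u + t', ?_, ?_, ?_⟩
      · rw [polar_add_right, hu1, h1, add_zero]
      · rw [polar_add_right, hu2, h2, add_zero]
      · rw [qmap_add, hqu, hqt, h3]; simp
    · exact ⟨t', h1, h2, hqt⟩
  · exact ⟨u, hu1, hu2, hqu⟩

private lemma trans_kE_smul (T : TF QK κ Q) {z u : V} (h : RPair QK z u) (a : K) (y : V) :
    (kE T h).1 (a • y) = a • (kE T h).1 y := by
  change (rho h).1 (a • y) = a • (rho h).1 y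
  exact map_smul _ _ _

private lemma trans_smul {x : V} (h : PP K M x) (c : K) : PP K M (c • x) := by
  intro a b
  rw [smul_smul, smul_smul]
  exact h _ _

private lemma trans_key (T : TF QK κ Q) (hM : BigO T M) {x₀ x z : V} (hq : QK x₀ = 0)
    (hx : QK x = 0) (hz : QK z = 0) {c : K} (hc : c ≠ 0) (h1 : polar QK z x₀ = c)
    (h2 : polar QK z x = c) (h : PP K M x₀) : PP K M x := by
  have hR : RPair QK z (c⁻¹ • (x - x₀)) :=
    ⟨hz, by rw [polar_smul_right, polar_sub_right, h1, h2, sub_self, smul_zero]⟩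
  have e : (kE T hR).1 x₀ = x := by
    rw [kE_apply, h1, polar_smul_left, polar_sub_left, polar_self_of_Q hq, QuadraticMap.map_smul,
      qmap_sub, hx, hq]
    have hk : c⁻¹ * c = 1 := inv_mul_cancel₀ hc
    simp only [smul_eq_mul, sub_zero, zero_add, add_zero, zero_sub]
    linear_combination (norm := module) hk • ((x - x₀) + (c⁻¹ * polar QK x x₀) • z)
  intro a b
  have h3 := (h a b).conj (kE_mem T hM hR)
  rw [trans_kE_smul, trans_kE_smul, e] at h3
  exact h3

private lemma trans_one (T : TF QK κ Q) (hd : 3 ≤ finrank K V) (hM : BigO T M) {x₀ x : V}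
    (hq : QK x₀ = 0) (hx : QK x = 0) (hb : polar QK x₀ x ≠ 0) (h : PP K M x₀) : PP K M x := by
  obtain ⟨w, hw1, hw2, hw⟩ := trans_nonsing T.nd hd hq hx hb
  have hb' : polar QK x x₀ = polar QK x₀ x := polar_comm _ _ _
  obtain ⟨z, hzdef⟩ : ∃ z, z = x₀ - (QK w / polar QK x₀ x) • x + w := ⟨_, rfl⟩
  have hz : QK z = 0 := by
    rw [hzdef, qmap_add, Q_sub_smul, hq, hx, polar_sub_left, polar_smul_left, hw1, hw2, hb']
    simp only [smul_eq_mul]
    field_simp
    ring
  have h1 : polar QK z x₀ = - QK w := by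
    rw [hzdef, polar_add_left, polar_sub_left, polar_smul_left, polar_self_of_Q hq, hb',
      polar_comm QK w x₀, hw1]
    simp only [smul_eq_mul]
    field_simp
    ring
  have h2 : polar QK z ((- QK w / polar QK x₀ x) • x) = - QK w := by
    rw [hzdef, polar_smul_right, polar_add_left, polar_sub_left, polar_smul_left,
      polar_self_of_Q hx, polar_comm QK w x, hw2]
    simp only [smul_eq_mul]
    field_simp
    ring
  have h3 : PP K M ((- QK w / polar QK x₀ x) • x) :=
    trans_key T hM hq (by rw [QuadraticMap.map_smul, hx, smul_zero]) hz (neg_ne_zero.2 hw) h1 h2 h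
  have h4 := trans_smul h3 (- QK w / polar QK x₀ x)⁻¹
  rw [smul_smul, inv_mul_cancel₀ (div_ne_zero (neg_ne_zero.2 hw) hb), one_smul] at h4
  exact h4

theorem PP_all (T : TF QK κ Q) (hd : 3 ≤ finrank K V) (hM : BigO T M) {x₀ : V} (hx0 : x₀ ≠ 0)
    (hq : QK x₀ = 0) (h : PP K M x₀) {x : V} (hx : QK x = 0) : PP K M x := by
  by_cases hx0' : x = 0
  · subst hx0'
    intro a b
    rw [smul_zero, smul_zero]
    exact LR.zero_left _ (by simp)
  by_cases hb : polar QK x₀ x = 0
  · obtain ⟨xs, hxs, h1⟩ := exists_partner T.nd hx0 hq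
    have hPs : PP K M xs := trans_one T hd hM hq hxs (by rw [h1]; exact one_ne_zero) h
    by_cases hb2 : polar QK xs x = 0
    · obtain ⟨y, hy⟩ := qexists_dual QK T.nd hx0'
      have h1' : polar QK xs x₀ = 1 := by rw [polar_comm]; exact h1
      obtain ⟨y', hy'⟩ : ∃ y', y' = y - polar QK xs y • x₀ - polar QK x₀ y • xs := ⟨_, rfl⟩
      have e1 : polar QK x₀ y' = 0 := by
        rw [hy', polar_sub_right, polar_sub_right, polar_smul_right, polar_smul_right,
          polar_self_of_Q hq, h1]
        simp
      have e2 : polar QK xs y' = 0 := by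
        rw [hy', polar_sub_right, polar_sub_right, polar_smul_right, polar_smul_right,
          polar_self_of_Q hxs, h1']
        simp
      have e3 : polar QK x y' = 1 := by
        rw [hy', polar_sub_right, polar_sub_right, polar_smul_right, polar_smul_right, hy,
          polar_comm QK x x₀, polar_comm QK x xs, hb, hb2]
        simp
      obtain ⟨x', hx'⟩ : ∃ x', x' = y' - QK y' • x := ⟨_, rfl⟩
      have f0 : QK x' = 0 := by
        rw [hx', Q_sub_smul, hx, polar_comm QK x y', ]
        rw [polar_comm QK y' x, e3]; ring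
      have f1 : polar QK x₀ x' = 0 := by
        rw [hx', polar_sub_right, polar_smul_right, e1, hb]; simp
      have f2 : polar QK xs x' = 0 := by
        rw [hx', polar_sub_right, polar_smul_right, e2, hb2]; simp
      have f3 : polar QK x x' = 1 := by
        rw [hx', polar_sub_right, polar_smul_right, e3, polar_self_of_Q hx]; simp
      have g0 : QK (xs + x') = 0 := by rw [qmap_add, hxs, f0, f2]; simp
      have g1 : polar QK x₀ (xs + x') ≠ 0 := by
        rw [polar_add_right, h1, f1]; simp
      have g2 : polar QK (xs + x') x ≠ 0 := by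
        rw [polar_add_left, hb2, polar_comm QK x' x, f3]; simp
      exact trans_one T hd hM g0 hx g2 (trans_one T hd hM hq g0 g1 h)
    · exact trans_one T hd hM hxs hx hb2 hPs
  · exact trans_one T hd hM hq hx hb h

end Cfsg.Agent.Lib.Helper17.C3O
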