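import Cfsg.Agent.Lib.Helper17.C3O.G0

set_option autoImplicit false
set_option linter.unusedSectionVars false
set_option linter.unusedVariables false
set_option linter.unusedSimpArgs false

namespace Cfsg.Agent.Lib.Helper17.C3O

open QuadraticMap Module Cfsg.Agent.Lib.Helper95 Cfsg.Agent.Lib.Helper97.C3
  Cfsg.Agent.Lib.Helper97.OSub
open Cfsg.Agent.Lib.Helper49 hiding glEquiv glEquiv_apply

variable {F K V : Type*} [Field F] [Fintype F] [Field K] [Fintype K] [Algebra F K]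
  [FiniteDimensional F K] [AddCommGroup V] [Module F V] [Module K V] [IsScalarTower F K V]
  [FiniteDimensional K V]
  {QK : QuadraticForm K V} {κ : K →ₗ[F] F} {Q : QuadraticForm F V} {M : Subgroup (OG Q)}

private lemma trv_inv_apply (y : OG Q) {a b : V} (h : y.1 a = b) : (y⁻¹).1 b = a := by
  rw [← h]
  change (y⁻¹ * y).1 a = a
  rw [inv_mul_cancel]
  rfl

/-- two vectors orthogonal to `x₀` with product one -/
private lemma trv_exists_pair (hnd : (polarBilin QK).Nondegenerate) (hd : 3 ≤ finrank K V) {x₀ : V}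
    (hx0 : x₀ ≠ 0) (hq : QK x₀ = 0) :
    ∃ u u₂, polar QK x₀ u = 0 ∧ polar QK x₀ u₂ = 0 ∧ polar QK u u₂ = 1 := by
  obtain ⟨xs, hxs, h1⟩ := exists_partner hnd hx0 hq
  let L : V →ₗ[K] (Fin 2 → K) := LinearMap.pi ![polarBilin QK x₀, polarBilin QK xs]
  have hker : LinearMap.ker L ≠ ⊥ := by
    apply LinearMap.ker_ne_bot_of_finrank_lt
    rw [Module.finrank_fin_fun]
    omega
  obtain ⟨u, hu, hu0⟩ := Submodule.exists_mem_ne_zero_of_ne_bot hker
  have hu1 : polar QK x₀ u = 0 := by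
    have := congrFun (LinearMap.mem_ker.1 hu) 0
    simpa [L] using this
  have hu2 : polar QK xs u = 0 := by
    have := congrFun (LinearMap.mem_ker.1 hu) 1
    simpa [L] using this
  obtain ⟨t, ht⟩ := qexists_dual QK hnd hu0
  refine ⟨u, t - polar QK xs t • x₀ - polar QK x₀ t • xs, hu1, ?_, ?_⟩
  · rw [polar_sub_right, polar_sub_right, polar_smul_right, polar_smul_right, polar_self_of_Q hq, h1]
    simp
  · rw [polar_sub_right, polar_sub_right, polar_smul_right, polar_smul_right, ht,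
      polar_comm QK u x₀, polar_comm QK u xs, hu1, hu2]
    simp

theorem LR_of_hasTrv (T : TF QK κ Q) (hd : 3 ≤ finrank K V) (hM : BigO T M) {x₀ : V} (hx0 : x₀ ≠ 0)
    (hq : QK x₀ = 0) {δ₀ : K} (h : HasTrv QK M x₀ δ₀) (μ : K) : LR M (δ₀ • x₀) (μ • x₀) := by
  obtain ⟨y, ω, hyM, hω0, hωδ, hy1, hy2⟩ := h
  obtain ⟨a₀, ha₀⟩ := dualK T.hκ ω
  have ha0 : a₀ ≠ 0 := by
    rintro rfl
    apply hω0
    ext l
    rw [ha₀]; simp
  obtain ⟨u, u₂', hu, hu₂', huu⟩ := trv_exists_pair T.nd hd hx0 hq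
  obtain ⟨u₂, hu₂def⟩ : ∃ u₂, u₂ = (μ / a₀) • u₂' := ⟨_, rfl⟩
  have hu₂ : polar QK x₀ u₂ = 0 := by rw [hu₂def, polar_smul_right, hu₂', smul_zero]
  have hm : a₀ * polar QK u u₂ = μ := by
    rw [hu₂def, polar_smul_right, huu, smul_eq_mul, mul_one]
    field_simp
  have hxx : polar QK x₀ x₀ = 0 := polar_self_of_Q hq
  have hux : polar QK u x₀ = 0 := by rw [polar_comm]; exact hu
  have hE : RPair QK x₀ u := ⟨hq, hu⟩
  have hE₂ : RPair QK x₀ u₂ := ⟨hq, hu₂⟩
  -- action of `y⁻¹`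
  have hyδ : y.1 (δ₀ • x₀) = δ₀ • x₀ := by rw [hy1, hωδ, zero_smul, add_zero]
  have hyi1 : ∀ l : K, (y⁻¹).1 (l • x₀) = l • x₀ - ω l • (δ₀ • x₀) := by
    intro l
    apply trv_inv_apply
    rw [map_sub, hy1, LinearEquiv.map_smul, hyδ]
    abel
  have hyi2 : ∀ w, polar QK x₀ w = 0 → ∃ c : K, (y⁻¹).1 w = w + c • x₀ := by
    intro w hw
    obtain ⟨c, hc⟩ := hy2 w hw
    refine ⟨-c + ω c • δ₀, ?_⟩
    apply trv_inv_apply
    have e1 : y.1 w = w + c • x₀ := by rw [← hc]; abel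
    have e2 : w + (-c + ω c • δ₀) • x₀ = w - c • x₀ + ω c • (δ₀ • x₀) := by
      rw [add_smul, neg_smul, smul_assoc]; abel
    rw [e2, map_add, map_sub, hy1, LinearEquiv.map_smul, hyδ, e1]
    abel
  -- the element `y₁`
  obtain ⟨y₁, hy₁def⟩ : ∃ y₁, y₁ = y * kE T hE * y⁻¹ * (kE T hE)⁻¹ := ⟨_, rfl⟩
  have hy₁M : y₁ ∈ M := by
    rw [hy₁def]
    exact M.mul_mem (M.mul_mem (M.mul_mem hyM (kE_mem T hM hE)) (M.inv_mem hyM))
      (M.inv_mem (kE_mem T hM hE))
  have hii : ∀ w, polar QK x₀ w = 0 → y₁.1 w = w - ω (polar QK u w) • (δ₀ • x₀) := by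
    intro w hw
    obtain ⟨c, hc⟩ := hyi2 w hw
    have hpol : ∀ (cF : F) (z : V), polar QK u (cF • z) = cF • polar QK u z := by
      intro cF z
      rw [← algebraMap_smul K cF z, polar_smul_right, smul_eq_mul, Algebra.smul_def]
    have hpol0 : ∀ (cF : F) (z : V), polar QK x₀ (cF • z) = cF • polar QK x₀ z := by
      intro cF z
      rw [← algebraMap_smul K cF z, polar_smul_right, smul_eq_mul, Algebra.smul_def]
    have s1 : (kE T hE.neg).1 w = w + polar QK u w • x₀ := by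
      rw [kE_apply, hw, polar_neg_left]
      simp only [zero_smul, mul_zero, add_zero, sub_zero, neg_smul, sub_neg_eq_add]
    obtain ⟨z, hz⟩ : ∃ z, z = (w + c • x₀) + (polar QK u w • x₀ - ω (polar QK u w) • (δ₀ • x₀)) :=
      ⟨_, rfl⟩
    have s2 : (y⁻¹).1 (w + polar QK u w • x₀) = z := by
      rw [map_add, hyi1, hc, hz]
    have hz0 : polar QK x₀ z = 0 := by
      rw [hz]
      simp only [polar_add_right, polar_sub_right, hpol0, polar_smul_right, hw, hxx, smul_eq_mul,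
        mul_zero, add_zero, sub_zero, smul_zero]
    have hzu : polar QK u z = polar QK u w := by
      rw [hz]
      simp only [polar_add_right, polar_sub_right, hpol, polar_smul_right, hux, smul_eq_mul,
        mul_zero, add_zero, sub_zero, smul_zero]
    have s3 : (kE T hE).1 z = (y⁻¹).1 w - ω (polar QK u w) • (δ₀ • x₀) := by
      rw [kE_apply, hz0, hzu, hc, hz]
      simp only [zero_smul, mul_zero, add_zero, sub_zero]
      abel
    rw [hy₁def, kE_inv]
    simp only [Subgroup.coe_mul, LinearEquiv.mul_apply]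
    rw [s1, s2, s3, map_sub, LinearEquiv.map_smul, hyδ]
    congr 1
    change (y * y⁻¹).1 w = w
    rw [mul_inv_cancel]
    rfl
  have hi : ∀ l : K, y₁.1 (l • x₀) = l • x₀ := by
    intro l
    rw [hii _ (by rw [polar_smul_right, hxx, smul_zero]), polar_smul_right, hux, smul_zero, map_zero,
      zero_smul, sub_zero]
  -- `n v = y₁ v - v`
  have hn1 : ∀ v, polar QK x₀ (y₁.1 v) = polar QK x₀ v := by
    intro v
    apply T.eq_of_kappa
    intro l
    have e1 := OG_polar Q y₁ (l • x₀) v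
    rw [hi, T.polar_eq, T.polar_eq, polar_smul_left, polar_smul_left, smul_eq_mul, smul_eq_mul] at e1
    exact e1
  have hn2 : ∀ v w, polar QK x₀ w = 0 →
      polar Q (y₁.1 v) w = polar Q v w + ω (polar QK u w) * polar Q v (δ₀ • x₀) := by
    intro v w hw
    have e1 := OG_polar Q y₁ v w
    rw [hii w hw, polar_sub_right, polar_smul_right] at e1
    have e2 : polar Q (y₁.1 v) (δ₀ • x₀) = polar Q v (δ₀ • x₀) := by
      rw [T.polar_eq, T.polar_eq, polar_smul_right, polar_smul_right, polar_comm QK _ x₀, hn1,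
        polar_comm QK x₀ v]
    rw [e2, smul_eq_mul] at e1
    linear_combination e1
  have hn3 : ∀ v, polar QK u₂ (y₁.1 v) = polar QK u₂ v + polar Q v (δ₀ • x₀) • μ := by
    intro v
    apply T.eq_of_kappa
    intro l
    have e1 := hn2 v (l • u₂) (by rw [polar_smul_right, hu₂, smul_zero])
    rw [T.polar_eq, T.polar_eq v, polar_smul_right, polar_smul_right, polar_smul_right, ha₀,
      smul_eq_mul, smul_eq_mul, smul_eq_mul] at e1
    rw [polar_comm QK u₂, polar_comm QK u₂ v, e1, mul_add, map_add]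
    congr 1
    rw [mul_smul_comm, map_smul, smul_eq_mul, mul_comm]
    congr 2
    rw [← hm]; ring
  have hs : SPair Q (δ₀ • x₀) (μ • x₀) := by
    refine ⟨?_, ?_, ?_⟩
    · rw [T.hQ, QuadraticMap.map_smul, hq, smul_zero, map_zero]
    · rw [T.hQ, QuadraticMap.map_smul, hq, smul_zero, map_zero]
    · rw [T.polar_eq, polar_smul_left, polar_smul_right, hxx, smul_zero, smul_zero, map_zero]
  refine ⟨hs, ?_⟩
  have key : sg hs = y₁ * kE T hE₂ * y₁⁻¹ * (kE T hE₂)⁻¹ := by
    rw [eq_mul_inv_iff_mul_eq, eq_mul_inv_iff_mul_eq]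
    apply OG_ext
    intro v
    simp only [Subgroup.coe_mul, LinearEquiv.mul_apply]
    rw [sg_apply, kE_apply, kE_apply, hn1, hn3]
    have hA : ∀ c : K, polar Q (c • x₀) (y₁.1 v + polar QK x₀ v • u₂ -
        (polar QK u₂ v + polar Q v (δ₀ • x₀) • μ) • x₀ - (QK u₂ * polar QK x₀ v) • x₀)
        = polar Q (c • x₀) v := by
      intro c
      rw [T.polar_eq, T.polar_eq (c • x₀) v]
      congr 1
      simp only [polar_sub_right, polar_add_right, polar_smul_right, polar_smul_left, hn1, hu₂, hxx,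
        smul_eq_mul, mul_zero, add_zero, sub_zero]
    rw [hA, hA]
    rw [map_sub, map_sub, map_add, hi, hi,
      hii (polar QK x₀ v • u₂) (by rw [polar_smul_right, hu₂, smul_zero]), polar_smul_right, ha₀]
    have e5 : κ (a₀ * polar QK x₀ v • polar QK u u₂) = polar Q (μ • x₀) v := by
      rw [T.polar_eq, polar_smul_left, smul_eq_mul, smul_eq_mul, ← hm]
      congr 1; ring
    rw [e5, polar_comm Q v (δ₀ • x₀), add_smul, smul_assoc]
    abel
  rw [key]
  exact M.mul_mem (M.mul_mem (M.mul_mem hy₁M (kE_mem T hM hE₂)) (M.inv_mem hy₁M))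
    (M.inv_mem (kE_mem T hM hE₂))

end Cfsg.Agent.Lib.Helper17.C3O
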