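import Cfsg.Agent.Lib.Helper17.C3O.G0

set_option autoImplicit false
set_option linter.unusedSectionVars false
set_option linter.unusedVariables false
set_option linter.unusedSimpArgs false

namespace Cfsg.Agent.Lib.Helper17.C3O

open QuadraticMap Module Cfsg.Agent.Lib.Helper95 Cfsg.Agent.Lib.Helper97.C3
  Cfsg.Agent.Lib.Helper97.OSub
open Cfsg.Agent.Lib.Helper49 hiding glEquiv glEquiv_apply

variable {F K V : Type*} [Field F] [Fintype F] [Field K] [Fintype K] [Algebra F K]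
  [FiniteDimensional F K] [AddCommGroup V] [Module F V] [Module K V] [IsScalarTower F K V]
  [FiniteDimensional K V]
  {QK : QuadraticForm K V} {κ : K →ₗ[F] F} {Q : QuadraticForm F V} {M : Subgroup (OG Q)}


theorem PP_of_LR (T : TF QK κ Q) (hM : BigO T M) {x₀ : V} (hx0 : x₀ ≠ 0) (hq : QK x₀ = 0) {δ₀ : K}
    (hδ : δ₀ ≠ 0) (h : ∀ μ : K, LR M (δ₀ • x₀) (μ • x₀)) : PP K M x₀ := by
  obtain ⟨xs, hxs, h1⟩ := exists_partner T.nd hx0 hq
  have hxx : polar QK x₀ x₀ = 0 := polar_self_of_Q hq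
  have h1' : polar QK xs x₀ = 1 := by rw [polar_comm]; exact h1
  have hQ0 : ∀ a : K, Q (a • x₀) = 0 := fun a => by
    rw [T.hQ, QuadraticMap.map_smul, hq, smul_zero, map_zero]
  have hf0 : ∀ a b : K, polar Q (a • x₀) (b • x₀) = 0 := fun a b => by
    rw [T.polar_eq, polar_smul_left, polar_smul_right, hxx]; simp
  have hdl : ∀ (ν : K), ν ≠ 0 → ∀ a : K, (dl QK x₀ xs ν).1 (a • x₀) = (ν * a) • x₀ := by
    intro ν hν a
    rw [dl_apply hq hxs h1 hν, polar_smul_right, polar_smul_right, hxx, h1']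
    simp only [smul_eq_mul, mul_zero, mul_one, zero_smul, add_zero]
    module
  have s1 : ∀ ν μ : K, LR M ((ν ^ 2 * δ₀) • x₀) (μ • x₀) := by
    intro ν μ
    by_cases hν : ν = 0
    · subst hν
      have : ((0 : K) ^ 2 * δ₀) • x₀ = 0 := by simp
      rw [this]
      exact LR.zero_left _ (hQ0 μ)
    · have h2 := (h ((ν ^ 2)⁻¹ * μ)).conj (dl_sq_mem T hM hq hxs h1 hν)
      rw [T.res_apply, T.res_apply, hdl _ (pow_ne_zero 2 hν), hdl _ (pow_ne_zero 2 hν),
        ← mul_assoc, mul_inv_cancel₀ (pow_ne_zero 2 hν), one_mul] at h2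
      exact h2
  intro a b
  obtain ⟨ν₁, ν₂, hν⟩ := exists_sq_add_sq' (1 : K) 1 (a / δ₀) one_ne_zero one_ne_zero
  have h3 := ((s1 ν₁ b).symm.add (s1 ν₂ b).symm (hf0 _ _)).symm
  have e : (ν₁ ^ 2 * δ₀) • x₀ + (ν₂ ^ 2 * δ₀) • x₀ = a • x₀ := by
    rw [← add_smul]
    congr 1
    have : a = (1 * ν₁ ^ 2 + 1 * ν₂ ^ 2) * δ₀ := by rw [hν]; field_simp
    rw [this]; ring
  rw [e] at h3
  exact h3

end Cfsg.Agent.Lib.Helper17.C3O
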