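import Cfsg.Agent.Lib.Helper17.C3O.G0
import Cfsg.Agent.Lib.Helper17.C3O.G1
import Cfsg.Agent.Lib.Helper17.C3O.G2
import Cfsg.Agent.Lib.Helper17.C3O.G3
import Cfsg.Agent.Lib.Helper17.C3O.G5
import Cfsg.Agent.Lib.Helper17.C3O.NSQ
import Cfsg.Agent.Lib.Helper17.C3O.SPRO
import Cfsg.Agent.Lib.Helper17.C3O.START
import Cfsg.Agent.Lib.Helper17.C3O.A1
import Cfsg.Agent.Lib.Helper17.C3O.A2
import Cfsg.Agent.Lib.Helper17.C3O.B1
import Cfsg.Agent.Lib.Helper17.C3O.B2
import Cfsg.Agent.Lib.Helper17.C3O.MAXO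
import Cfsg.Agent.Lib.Helper17.C3O.CASEA
import Cfsg.Agent.Lib.Helper17.C3O.TRV
import Cfsg.Agent.Lib.Helper17.C3O.ZP
import Cfsg.Agent.Lib.Helper17.C3O.TRANS
import Cfsg.Agent.Lib.Helper17.C3O.BKTV
import Cfsg.Agent.Lib.Helper17.C3O.BKDIL
import Cfsg.Agent.Lib.Helper17.C3O.BNRM
import Cfsg.Agent.Lib.Helper17.C3O.BATV
import Cfsg.Agent.Lib.Helper17.C3O.SIX
import Cfsg.Agent.Lib.Helper17.C3O.LRL
import Cfsg.Agent.Lib.Helper17.C3O.SIX2
import Cfsg.Agent.Lib.Helper17.C3O.FPK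
import Cfsg.Agent.Lib.Helper17.C3O.NOTN
import Cfsg.Agent.Lib.Helper17.C3O.FORM

set_option autoImplicit false
set_option linter.unusedSectionVars false
set_option linter.unusedVariables false

namespace Cfsg.Agent.Lib.Helper17.C3O

open QuadraticMap Module Cfsg.Agent.Lib.Helper95 Cfsg.Agent.Lib.Helper97.C3
  Cfsg.Agent.Lib.Helper97.OSub
open Cfsg.Agent.Lib.Helper49 hiding glEquiv glEquiv_apply

variable {F K V : Type*} [Field F] [Fintype F] [Field K] [Fintype K] [Algebra F K]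
  [FiniteDimensional F K] [AddCommGroup V] [Module F V] [Module K V] [IsScalarTower F K V]
  [FiniteDimensional K V]
  {QK : QuadraticForm K V} {κ : K →ₗ[F] F} {Q : QuadraticForm F V} {M : Subgroup (OG Q)}

/-- some singular `K`-point has all its long root elements in `M` -/
theorem exists_PP (T : TF QK κ Q) (hr : (finrank F K).Prime) (hK : 3 < Fintype.card K)
    (hd : 4 ≤ finrank K V) (hM : BigO T M) (g : OG Q) (hg : g ∈ M) (hgN : ¬ Nrm K g.1) :
    ∃ x, x ≠ 0 ∧ QK x = 0 ∧ PP K M x := by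
  obtain ⟨x₀, hx₀, hq, hnp⟩ := exists_sing_not_point T hK (by omega) g hgN
  obtain ⟨x, g', x₀', hc⟩ := exists_cfg T hd hM g hg hx₀ hq hnp
  obtain ⟨x, g', x₀', hc⟩ := exists_closeO T hr hK hd hM hc
  -- a vector of `P'` outside `P`
  obtain ⟨w, hw, hwx⟩ : ∃ w ∈ (kpt F K x₀').map g'.1.toLinearMap, w ∉ kpt F K x := by
    by_contra hcon
    push Not at hcon
    have hle : (kpt F K x₀').map g'.1.toLinearMap ≤ kpt F K x := hcon
    haveI : FiniteDimensional F V := Module.Finite.trans K V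
    have h1 : finrank F ↥((kpt F K x₀').map g'.1.toLinearMap) = finrank F ↥(kpt F K x) := by
      rw [LinearEquiv.finrank_map_eq, finrank_kpt hc.y0, finrank_kpt hc.x0]
    exact hc.ne (Submodule.eq_of_le_of_finrank_eq hle h1).symm
  by_cases hwq : QK w = 0
  · -- case B
    refine ⟨x, hc.x0, hc.qx, ?_⟩
    have hxw : polar QK x w = 0 := hc.orth w hw
    have hind : w ∉ Submodule.span K {x} := fun h => hwx h
    obtain ⟨e, he, heN⟩ := exists_not_nrm T hM hc hw hwx hwq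
    have hL : ∀ l ∈ Submodule.span K {x, w}, QK l = 0 := by
      intro l hl
      obtain ⟨a, b, rfl⟩ := Submodule.mem_span_pair.1 hl
      rw [qmap_add, QuadraticMap.map_smul, QuadraticMap.map_smul, hc.qx, hwq, polar_smul_left,
        polar_smul_right, hxw]
      simp
    have hfin : finrank K ↥(Submodule.span K {x, w}) = 2 := by
      have hli : LinearIndependent K ![x, w] := by
        rw [LinearIndependent.pair_iff' hc.x0]
        intro a ha
        exact hind (Submodule.mem_span_singleton.2 ⟨a, ha⟩)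
      have := finrank_span_eq_card hli
      rw [Matrix.range_cons, Matrix.range_cons, Matrix.range_empty, Set.union_empty,
        Set.singleton_union, Fintype.card_fin] at this
      exact this
    have hW : C3W.BigW K (XL M (Submodule.span K {x, w})) :=
      ⟨fun f c h => ktv_mem_XL T hM _ hL f c h, fun f c h hn => kdil_mem_XL T hM _ hL f c h hn⟩
    have hall := C3W.allATV_core hr hfin (two_lt_card_of_two_ne_zero T.two) _ hW e he heN
    exact PP_of_allATV T hM hc.qx hwq hxw hind hall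
  · -- case A
    obtain ⟨δ₀, hδ, ht⟩ := hasTrv_of_closeO T hM hc hw hwq
    exact ⟨x₀', hc.y0, hc.qy, PP_of_LR T hM hc.y0 hc.qy hδ
      (fun μ => LR_of_hasTrv T (by omega) hM hc.y0 hc.qy ht μ)⟩

theorem core (T : TF QK κ Q) (hr : (finrank F K).Prime) (hK : 3 < Fintype.card K)
    (hd : 4 ≤ finrank K V) (hd2 : finrank F K = 2 → 5 ≤ finrank K V) (hn : 8 < finrank F V)
    (hM : BigO T M) (g : OG Q) (hg : g ∈ M) (hgN : ¬ Nrm K g.1) : commutator (OG Q) ≤ M := by
  haveI : FiniteDimensional F V := Module.Finite.trans K V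
  obtain ⟨x₀, hx0, hq, hPP⟩ := exists_PP T hr hK hd hM g hg hgN
  have hP : ∀ x, QK x = 0 → PP K M x := fun x hx => PP_all T (by omega) hM hx0 hq hPP hx
  have h6 : ∀ z₁ z₂, QK z₁ = 0 → QK z₂ = 0 → polar QK z₁ z₂ ≠ 0 → polar Q z₁ z₂ = 0 →
      LR M z₁ z₂ := by
    intro z₁ z₂ h1 h2 hb hf
    rcases Nat.lt_or_ge 2 (finrank F K) with hr3 | hr3
    · exact LR_six T hr hr3 hP h1 h2 hb hf
    · have hr2 : finrank F K = 2 := le_antisymm hr3 hr.two_le
      exact LR_six_two T (hd2 hr2) (fun x₁ x₂ k1 k2 k12 => LR_orth T hM hr2 hP k1 k2 k12) h1 h2 hb hf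
  have hFP : ∀ z, z ≠ 0 → QK z = 0 → FP M z := fun z hz0 hz => FP_sing T hr.two_le hP h6 hz0 hz
  obtain ⟨xs, hxs, h1⟩ := exists_partner T.nd hx0 hq
  obtain ⟨c, hc⟩ : ∃ c : K, κ c ≠ 0 := by
    by_contra hcon
    push Not at hcon
    exact T.hκ (LinearMap.ext hcon)
  have hc0 : c ≠ 0 := by
    rintro rfl
    simp at hc
  have hxs0 : xs ≠ 0 := by
    rintro rfl
    simp at h1
  have hA := hFP x₀ hx0 hq
  have hB := hFP (c • xs) (smul_ne_zero hc0 hxs0) (by rw [QuadraticMap.map_smul, hxs, smul_zero])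
  have hne : polar Q x₀ (c • xs) ≠ 0 := by
    rw [T.polar_eq, polar_smul_right, h1, smul_eq_mul, mul_one]
    exact hc
  apply commutator_le_of_sg T.ndF hn
  intro u v h
  obtain ⟨_, hm⟩ := (FP.all T.ndF hn hA hB hne u h.qu).2 v h.qv h.uv
  exact hm

end Cfsg.Agent.Lib.Helper17.C3O
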