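import Cfsg.Agent.Lib.Helper97.OSubFull
import Cfsg.Agent.Lib.Helper49.Parabolic
import Cfsg.Agent.Lib.Helper49.DiagGG
import Cfsg.Agent.Lib.Helper50.QuadClass
import Cfsg.Agent.Lib.Helper17.C3W.Core

/-!
# Extension-field subgroups of `Ω_n(F)`, `q` odd: common definitions (ladder C3O, statement S5701)

`F ⊆ K` finite fields of odd order, `V` a `K`-space with a non-degenerate quadratic `K`-form `QK`;
`Q = κ ∘ QK` is the induced quadratic `F`-form.  `M` is a group of `Q`-isometries containing the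
squares of all `K`-linear `QK`-isometries.
-/

set_option autoImplicit false
set_option linter.unusedSectionVars false

namespace Cfsg.Agent.Lib.Helper17.C3O

open QuadraticMap Module Cfsg.Agent.Lib.Helper95 Cfsg.Agent.Lib.Helper97.C3
  Cfsg.Agent.Lib.Helper97.OSub
open Cfsg.Agent.Lib.Helper49 hiding glEquiv glEquiv_apply

variable {F K V : Type*} [Field F] [Field K] [Algebra F K] [AddCommGroup V]
  [Module F V] [Module K V] [IsScalarTower F K V]

/-- `Q` is the transfer `κ ∘ QK` of a non-degenerate quadratic `K`-form (odd characteristic). -/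
structure TF (QK : QuadraticForm K V) (κ : K →ₗ[F] F) (Q : QuadraticForm F V) : Prop where
  hQ : ∀ v, Q v = κ (QK v)
  hκ : κ ≠ 0
  nd : (polarBilin QK).Nondegenerate
  two : (2 : F) ≠ 0

variable {QK : QuadraticForm K V} {κ : K →ₗ[F] F} {Q : QuadraticForm F V}

namespace TF

variable (T : TF QK κ Q)
include T

lemma polar_eq (u v : V) : polar Q u v = κ (polar QK u v) := by
  simp only [polar, T.hQ, map_sub]

lemma twoK : (2 : K) ≠ 0 := by
  intro h
  apply T.two
  have : algebraMap F K 2 = 0 := by rw [map_ofNat]; exact h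
  exact (map_eq_zero _).1 this

/-- `κ (l * a) = 0` for all `l` forces `a = 0`. -/
lemma eq_zero_of_kappa {a : K} (h : ∀ l : K, κ (l * a) = 0) : a = 0 := by
  by_contra ha
  apply T.hκ
  ext l
  have := h (l * a⁻¹)
  rwa [mul_assoc, inv_mul_cancel₀ ha, mul_one] at this

lemma eq_of_kappa {a b : K} (h : ∀ l : K, κ (l * a) = κ (l * b)) : a = b := by
  rw [← sub_eq_zero]
  apply T.eq_zero_of_kappa
  intro l
  rw [mul_sub, map_sub, h, sub_self]

/-- `F`-orthogonality to a whole `K`-point is `K`-orthogonality. -/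
lemma polarK_eq_zero {u v : V} (h : ∀ l : K, polar Q (l • u) v = 0) : polar QK u v = 0 := by
  apply T.eq_zero_of_kappa
  intro l
  have := h l
  rwa [T.polar_eq, polar_smul_left, smul_eq_mul] at this

lemma ndF : (polarBilin Q).Nondegenerate := by
  apply nondegenerate_of_separatingLeft
  intro x hx
  apply T.nd.1 x
  intro y
  change polar QK x y = 0
  apply T.polarK_eq_zero
  intro l
  have := hx (l • y)
  change polar Q x (l • y) = 0 at this
  rw [T.polar_eq, polar_smul_left, ← polar_smul_right, ← T.polar_eq]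
  exact this

/-- restriction of scalars on isometry groups -/
def res : OG QK →* OG Q where
  toFun e := ⟨e.1.restrictScalars F, fun x => by
    change Q (e.1 x) = Q x
    rw [T.hQ, T.hQ, OG_apply]⟩
  map_one' := rfl
  map_mul' _ _ := rfl

@[simp] lemma res_apply (e : OG QK) (v : V) : (T.res e).1 v = e.1 v := rfl

lemma nrm_res (e : OG QK) : Nrm K (T.res e).1 := fun a => ⟨a, fun v => by simp⟩

end TF

/-- `M` contains the squares of the `K`-linear isometries. -/
def BigO (T : TF QK κ Q) (M : Subgroup (OG Q)) : Prop := ∀ e : OG QK, T.res (e * e) ∈ M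

/-- a `K`-Siegel transformation as an `F`-isometry:
`y ↦ y + β(x,y) u - β(u,y) x - QK(u) β(x,y) x`, `β = polar QK` -/
def kE (T : TF QK κ Q) {x u : V} (h : RPair QK x u) : OG Q := T.res (rho h)

lemma kE_apply (T : TF QK κ Q) {x u : V} (h : RPair QK x u) (y : V) :
    (kE T h).1 y = y + polar QK x y • u - polar QK u y • x - (QK u * polar QK x y) • x := by
  change (rho h).1 y = _
  rw [rho_apply, rhoLin_apply]

lemma RPair.smul {x u : V} (h : RPair QK x u) (c : K) : RPair QK x (c • u) :=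
  ⟨h.qu, by rw [polar_smul_right, h.uw, smul_zero]⟩

lemma kE_mem (T : TF QK κ Q) {M : Subgroup (OG Q)} (hM : BigO T M) {x u : V} (h : RPair QK x u) :
    kE T h ∈ M := by
  have h2 := T.twoK
  have e : rho h = rho (RPair.smul h (2⁻¹ : K)) * rho (RPair.smul h (2⁻¹ : K)) := by
    rw [← rho_add]
    apply OG_ext
    intro y
    rw [rho_apply, rho_apply]
    congr 1
    rw [← add_smul]
    have : (2⁻¹ : K) + 2⁻¹ = 1 := by field_simp; norm_num
    rw [this, one_smul]
  rw [kE, e]
  exact hM _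

lemma kE_inv (T : TF QK κ Q) {x u : V} (h : RPair QK x u) : (kE T h)⁻¹ = kE T h.neg := by
  rw [kE, kE, ← map_inv]
  congr 1
  apply inv_eq_of_mul_eq_one_right
  rw [← rho_add]
  apply OG_ext
  intro y
  rw [rho_apply]
  simp only [add_neg_cancel]
  rw [rhoLin_zero]
  rfl

/-- A configuration: a singular `K`-point and an `M`-image of a singular `K`-point which are
different and meet non-trivially. -/
structure Cfg (QK : QuadraticForm K V) (M : Subgroup (OG Q)) (x : V) (g : OG Q) (x₀ : V) :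
    Prop where
  x0 : x ≠ 0
  qx : QK x = 0
  y0 : x₀ ≠ 0
  qy : QK x₀ = 0
  gM : g ∈ M
  ne : kpt F K x ≠ (kpt F K x₀).map g.1.toLinearMap
  inf : kpt F K x ⊓ (kpt F K x₀).map g.1.toLinearMap ≠ ⊥

/-- A configuration whose two members are orthogonal and meet in a hyperplane of each. -/
structure CloseO (QK : QuadraticForm K V) (M : Subgroup (OG Q)) (x : V) (g : OG Q) (x₀ : V) :
    Prop extends Cfg QK M x g x₀ where
  close : finrank F ↥(kpt F K x ⊓ (kpt F K x₀).map g.1.toLinearMap) + 1 = finrank F K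
  orth : ∀ y ∈ (kpt F K x₀).map g.1.toLinearMap, polar QK x y = 0

/-- `M` contains an element inducing an `F`-transvection with centre `δ₀ • x₀` on the `K`-point of
`x₀` and the identity on `x₀^⊥ / K x₀`. -/
def HasTrv (QK : QuadraticForm K V) (M : Subgroup (OG Q)) (x₀ : V) (δ₀ : K) : Prop :=
  ∃ (y : OG Q) (ω : K →ₗ[F] F), y ∈ M ∧ ω ≠ 0 ∧ ω δ₀ = 0 ∧
    (∀ l : K, y.1 (l • x₀) = l • x₀ + ω l • (δ₀ • x₀)) ∧
    (∀ w, polar QK x₀ w = 0 → ∃ c : K, y.1 w - w = c • x₀)

variable (K) in
/-- all long root elements of `Q` whose line lies in the `K`-point of `x` are in `M` -/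
def PP (M : Subgroup (OG Q)) (x : V) : Prop := ∀ a b : K, LR M (a • x) (b • x)

/-- the group induced on a `K`-subspace `L` by its stabiliser in `M` -/
def XL (M : Subgroup (OG Q)) (L : Submodule K V) : Subgroup (L ≃ₗ[F] L) where
  carrier := {e | ∃ y ∈ M, ∀ l : L, y.1 (l : V) = (e l : V)}
  one_mem' := ⟨1, M.one_mem, fun _ => rfl⟩
  mul_mem' := by
    rintro a b ⟨y, hy, h1⟩ ⟨z, hz, h2⟩
    refine ⟨y * z, M.mul_mem hy hz, fun l => ?_⟩
    rw [Subgroup.coe_mul, LinearEquiv.mul_apply, LinearEquiv.mul_apply, h2, h1]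
  inv_mem' := by
    rintro a ⟨y, hy, h1⟩
    refine ⟨y⁻¹, M.inv_mem hy, fun l => ?_⟩
    have h2 := h1 (a⁻¹ l)
    have h3 : a (a⁻¹ l) = l := a.apply_symm_apply l
    rw [h3] at h2
    rw [← h2]
    change (y⁻¹ * y).1 _ = _
    rw [inv_mul_cancel]
    rfl

lemma mem_XL {M : Subgroup (OG Q)} {L : Submodule K V} {e : L ≃ₗ[F] L} :
    e ∈ XL M L ↔ ∃ y ∈ M, ∀ l : L, y.1 (l : V) = (e l : V) := Iff.rfl

/-- the hyperbolic rotation `x ↦ ν x`, `xs ↦ ν⁻¹ xs` -/
noncomputable def dl (QK : QuadraticForm K V) (x xs : V) (ν : K) : OG QK :=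
  refl QK (x - xs) * refl QK (x - ν • xs)

end Cfsg.Agent.Lib.Helper17.C3O
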