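import Cfsg.Agent.Lib.Helper17.C3O.G0

set_option autoImplicit false
set_option linter.unusedSectionVars false
set_option linter.unusedVariables false

namespace Cfsg.Agent.Lib.Helper17.C3O

open QuadraticMap Module Cfsg.Agent.Lib.Helper95 Cfsg.Agent.Lib.Helper97.C3
  Cfsg.Agent.Lib.Helper97.OSub
open Cfsg.Agent.Lib.Helper49 hiding glEquiv glEquiv_apply

variable {F K V : Type*} [Field F] [Fintype F] [Field K] [Fintype K] [Algebra F K]
  [FiniteDimensional F K] [AddCommGroup V] [Module F V] [Module K V] [IsScalarTower F K V]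
  [FiniteDimensional K V]
  {QK : QuadraticForm K V} {κ : K →ₗ[F] F} {Q : QuadraticForm F V} {M : Subgroup (OG Q)}

theorem fpk_case_ne (T : TF QK κ Q) (hP : ∀ x, QK x = 0 → PP K M x)
    (h6 : ∀ z₁ z₂, QK z₁ = 0 → QK z₂ = 0 → polar QK z₁ z₂ ≠ 0 → polar Q z₁ z₂ = 0 → LR M z₁ z₂)
    {z : V} (hz : QK z = 0) {v : V} (hv : Q v = 0) (hl : polar QK z v ≠ 0)
    (hzv : polar Q z v = 0) : LR M z v := by
  set l := polar QK z v with hldef
  have hzz : polar QK z z = 0 := polar_self_of_Q hz
  set μ := QK v / l with hμ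
  have hμl : μ * l = QK v := by rw [hμ]; field_simp
  set w := v - μ • z with hw
  have hqw : QK w = 0 := by
    rw [hw, Q_sub_smul, hz, ← hldef, hμl]; ring
  have hzw : polar QK z w = l := by
    rw [hw, polar_sub_right, polar_smul_right, hzz, smul_zero, sub_zero]
  have L1 : LR M z w := by
    apply h6 z w hz hqw
    · rw [hzw]; exact hl
    · rw [T.polar_eq, hzw, hldef, ← T.polar_eq]; exact hzv
  have L2 : LR M z (μ • z) := by
    have := hP z hz 1 μ
    rwa [one_smul] at this
  have h3 : polar Q w (μ • z) = 0 := by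
    rw [T.polar_eq, polar_smul_right, polar_comm, hzw, smul_eq_mul, hμl, ← T.hQ]; exact hv
  have := L1.add L2 h3
  rwa [hw, sub_add_cancel] at this

theorem FP_sing (T : TF QK κ Q) (hr2 : 2 ≤ finrank F K) (hP : ∀ x, QK x = 0 → PP K M x)
    (h6 : ∀ z₁ z₂, QK z₁ = 0 → QK z₂ = 0 → polar QK z₁ z₂ ≠ 0 → polar Q z₁ z₂ = 0 → LR M z₁ z₂)
    {z : V} (hz0 : z ≠ 0) (hz : QK z = 0) : FP M z := by
  refine ⟨by rw [T.hQ, hz, map_zero], ?_⟩
  intro v hv hzv
  by_cases hl : polar QK z v = 0
  swap
  · exact fpk_case_ne T hP h6 hz hv hl hzv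
  have hzz : polar QK z z = 0 := polar_self_of_Q hz
  obtain ⟨zs, hzs, hzzs⟩ := exists_partner T.nd hz0 hz
  have hss : polar QK zs zs = 0 := polar_self_of_Q hzs
  have hzsz : polar QK zs z = 1 := by rw [polar_comm]; exact hzzs
  set lam := polar QK zs v with hlam
  set m := v - lam • z with hm
  have hzm : polar QK z m = 0 := by
    rw [hm, polar_sub_right, polar_smul_right, hzz, hl, smul_zero, sub_zero]
  have hsm : polar QK zs m = 0 := by
    rw [hm, polar_sub_right, polar_smul_right, hzsz, ← hlam, smul_eq_mul, mul_one, sub_self]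
  have hqm : QK m = QK v := by
    rw [hm, Q_sub_smul, hz, hl]; ring
  -- a nonzero element of the kernel of κ
  obtain ⟨l₁, hl₁0, hl₁⟩ : ∃ l₁ : K, l₁ ≠ 0 ∧ κ l₁ = 0 := by
    by_contra hcon
    push Not at hcon
    have hker : LinearMap.ker κ = ⊥ := by
      rw [LinearMap.ker_eq_bot']
      intro a ha
      by_contra ha0
      exact hcon a ha0 ha
    have h := LinearMap.finrank_range_add_finrank_ker κ
    rw [hker, finrank_bot, add_zero] at h
    have h' : finrank F (LinearMap.range κ) ≤ 1 := by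
      calc finrank F (LinearMap.range κ) ≤ finrank F F := Submodule.finrank_le _
        _ = 1 := finrank_self F
    omega
  set w₁ := m + l₁ • zs with hw₁
  set w₂ := (-l₁) • zs with hw₂
  have hqw₁ : QK w₁ = QK v := by
    rw [hw₁, qmap_add, QuadraticMap.map_smul, hzs, polar_smul_right, polar_comm, hsm, hqm]
    simp
  have hzw₁ : polar QK z w₁ = l₁ := by
    rw [hw₁, polar_add_right, polar_smul_right, hzm, hzzs, smul_eq_mul, mul_one, zero_add]
  have L1 : LR M z w₁ := by
    apply fpk_case_ne T hP h6 hz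
    · rw [T.hQ, hqw₁, ← T.hQ]; exact hv
    · rw [hzw₁]; exact hl₁0
    · rw [T.polar_eq, hzw₁]; exact hl₁
  have hzw₂ : polar QK z w₂ = -l₁ := by
    rw [hw₂, polar_smul_right, hzzs, smul_eq_mul, mul_one]
  have L2 : LR M z w₂ := by
    apply h6 z w₂ hz
    · rw [hw₂, QuadraticMap.map_smul, hzs, smul_zero]
    · rw [hzw₂]; exact neg_ne_zero.mpr hl₁0
    · rw [T.polar_eq, hzw₂, map_neg, hl₁, neg_zero]
  have h12 : polar Q w₁ w₂ = 0 := by
    rw [T.polar_eq, hw₁, hw₂, polar_smul_right, polar_add_left, polar_smul_left, hss,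
      polar_comm QK m zs, hsm]
    simp
  have L3 : LR M z m := by
    have := L1.add L2 h12
    have e : w₁ + w₂ = m := by rw [hw₁, hw₂]; module
    rwa [e] at this
  have L4 : LR M z (lam • z) := by
    have := hP z hz 1 lam
    rwa [one_smul] at this
  have h34 : polar Q m (lam • z) = 0 := by
    rw [T.polar_eq, polar_smul_right, polar_comm, hzm, smul_zero, map_zero]
  have := L3.add L4 h34
  rwa [hm, sub_add_cancel] at this

end Cfsg.Agent.Lib.Helper17.C3O
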