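import Cfsg.Agent.Lib.Helper17.C3O.Core
import Cfsg.Agent.Lib.Helper97.C3.Glue
import Cfsg.Agent.Lib.Helper95.OmGlue

set_option autoImplicit false
set_option linter.unusedSectionVars false
set_option linter.unusedVariables false
set_option linter.style.haveILetI false

namespace Cfsg.Agent.Lib.Helper17.C3O

open QuadraticMap Module Matrix Cfsg.Agent.Lib.Helper95 Cfsg.Agent.Lib.Helper97.C3
open Cfsg.Agent.Lib.Helper49 hiding glEquiv glEquiv_apply

variable {F : Type*} [Field F] [Fintype F] {n : ℕ}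

lemma nrm_iff_mem [NeZero n] {r : ℕ} (K : Subalgebra F (Matrix (Fin n) (Fin n) F))
    (hK : Cfsg.Geo.IsFieldSubalgebra r K) (e : (Fin n → F) ≃ₗ[F] (Fin n → F)) :
    e ∈ toLinGrp (Cfsg.Geo.subalgebraNormalizer K) ↔ Nrm (KK K hK) e := by
  have hsmul : ∀ (a : KK K hK) (v : Fin n → F), a • v = KK.mat K hK a *ᵥ v := fun a v => rfl
  obtain ⟨g, rfl⟩ : ∃ g, glEquiv g = e := ⟨glEquiv.symm e, MulEquiv.apply_symm_apply _ _⟩
  rw [glEquiv_mem_toLinGrp]
  constructor
  · intro hg a
    refine ⟨KK.mk K hK _ ((hg (KK.mat K hK a)).1 (KK.mat_mem K hK a)), fun v => ?_⟩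
    rw [glEquiv_apply, glEquiv_apply, hsmul, hsmul, Matrix.mulVec_mulVec, Matrix.mulVec_mulVec,
      KK.mat_mk, mul_assoc, ← Units.val_mul, inv_mul_cancel, Units.val_one, mul_one]
  · intro hg
    apply conj_mem_iff
    intro k hk
    obtain ⟨b, hb⟩ := hg (KK.mk K hK k hk)
    have : (g : Matrix (Fin n) (Fin n) F) * k = KK.mat K hK b * (g : Matrix (Fin n) (Fin n) F) := by
      apply Matrix.ext_of_mulVec_single
      intro i
      have := hb (Pi.single i 1)
      rw [glEquiv_apply, glEquiv_apply, hsmul, hsmul, Matrix.mulVec_mulVec, Matrix.mulVec_mulVec] at this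
      exact this
    rw [this, mul_assoc, ← Units.val_mul, mul_inv_cancel, Units.val_one, mul_one]
    exact KK.mat_mem K hK b

theorem glue (hn : 13 ≤ n) (heven : Even n) (Q : (Fin n → F) → F)
    (hQ : Cfsg.Geo.IsNondegenerateQuadraticForm Q) (hodd : Odd (Fintype.card F)) (r : ℕ)
    (hr : r.Prime) (hnr : 3 * r ≤ n) (K : Subalgebra F (Matrix (Fin n) (Fin n) F))
    (hK : Cfsg.Geo.IsFieldSubalgebra r K)
    (hsa : Cfsg.Geo.IsSelfAdjointFor (QuadraticMap.polar Q) K) :
    Cfsg.Geo.IsMaximalIn (Cfsg.Geo.omegaGL Q)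
      (Cfsg.Geo.subalgebraNormalizer K ⊓ Cfsg.Geo.omegaGL Q) := by
  haveI : NeZero n := ⟨by omega⟩
  have hQ' := qfOf_nondegenerate Q hQ
  have hrK : finrank F (KK K hK) = r := KK.finrank_eq K hK
  haveI : FiniteDimensional F (KK K hK) :=
    Module.finite_of_finrank_pos (by rw [hrK]; exact hr.pos)
  haveI : FiniteDimensional (KK K hK) (Fin n → F) :=
    Module.Finite.of_restrictScalars_finite F (KK K hK) _
  haveI : Finite (KK K hK) := Module.finite_of_finite F
  haveI : Fintype (KK K hK) := Fintype.ofFinite _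
  have hrp : (finrank F (KK K hK)).Prime := by rw [hrK]; exact hr
  have h2 : (2 : F) ≠ 0 := by
    intro h
    have hc : ringChar F = 2 := by
      have := ringChar.dvd (R := F) (x := 2) (by exact_mod_cast h)
      exact (Nat.prime_dvd_prime_iff_eq (CharP.char_is_prime F (ringChar F)) Nat.prime_two).1 this
    have := FiniteField.even_card_of_char_two hc
    exact (Nat.not_even_iff_odd.2 hodd) (Nat.even_iff.2 this)
  have hmul := Module.finrank_mul_finrank F (KK K hK) (Fin n → F)
  rw [hrK, Module.finrank_fin_fun] at hmul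
  have hdV : finrank F (Fin n → F) = n := by simp
  have hd : 4 ≤ finrank (KK K hK) (Fin n → F) := by
    by_contra hcon
    have h3 : finrank (KK K hK) (Fin n → F) ≤ 3 := by omega
    have h4 : r * finrank (KK K hK) (Fin n → F) ≤ r * 3 := Nat.mul_le_mul_left r h3
    have h5 : n = 3 * r := by omega
    obtain ⟨j, hj⟩ := heven
    have h6 : 2 ∣ 3 * r := ⟨j, by omega⟩
    have h7 : 2 ∣ r := (Nat.Coprime.dvd_of_dvd_mul_left (by norm_num) h6)
    have h8 : r = 2 := ((Nat.prime_dvd_prime_iff_eq Nat.prime_two hr).1 h7).symm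
    omega
  have hd2 : finrank F (KK K hK) = 2 → 5 ≤ finrank (KK K hK) (Fin n → F) := by
    intro h
    rw [hrK] at h
    obtain ⟨dd, hdd⟩ : ∃ dd, dd = finrank (KK K hK) (Fin n → F) := ⟨_, rfl⟩
    rw [← hdd] at hmul ⊢
    subst h
    omega
  have hcard : 3 < Fintype.card (KK K hK) := by
    have h1 : Fintype.card (KK K hK) = Fintype.card F ^ finrank F (KK K hK) :=
      Module.card_eq_pow_finrank
    have h3 : 3 ≤ Fintype.card F := two_lt_card_of_two_ne_zero h2
    have h4 : 2 ≤ finrank F (KK K hK) := hrp.two_le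
    calc 3 < 3 ^ 2 := by norm_num
      _ ≤ Fintype.card F ^ 2 := Nat.pow_le_pow_left h3 2
      _ ≤ Fintype.card F ^ finrank F (KK K hK) := Nat.pow_le_pow_right (by omega) h4
      _ = _ := h1.symm
  have hsa' : ∀ (k : KK K hK) (u v : Fin n → F),
      polar (qfOf Q hQ) (k • u) v = polar (qfOf Q hQ) u (k • v) := by
    intro k u v
    exact hsa (KK.mat K hK k) (KK.mat_mem K hK k) u v
  obtain ⟨QK, κ, T⟩ := exists_TF (K := KK K hK) h2 (qfOf Q hQ) hQ' hsa'
  refine omega_maximal_of (qfOf Q hQ) (Cfsg.Geo.subalgebraNormalizer K)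
    (toLinGrp (Cfsg.Geo.subalgebraNormalizer K)) (fun g => glEquiv_mem_toLinGrp.symm) ?_ ?_
  · obtain ⟨g, hg, hgN⟩ := exists_not_nrm_comm T hrp.two_le (by omega) (by rw [hdV]; omega)
    exact ⟨g, hg, fun h => hgN ((nrm_iff_mem K hK _).1 h)⟩
  · intro M hM g hg hgS
    refine core T hrp hcard hd hd2 (by rw [hdV]; omega) ?_ g hg
      (fun h => hgS ((nrm_iff_mem K hK _).2 h))
    intro e
    apply hM
    · rw [map_mul]
      exact mul_self_mem_commutator _ hQ' (Or.inl (by
        have := two_lt_card_of_two_ne_zero h2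
        omega)) _
    · rw [nrm_iff_mem K hK]
      exact T.nrm_res _

end Cfsg.Agent.Lib.Helper17.C3O
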