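import Cfsg.Agent.Lib.Helper17.C3O.A1
import Cfsg.Agent.Lib.Helper17.C3O.A2
import Cfsg.Agent.Lib.Helper17.C3O.B1
import Cfsg.Agent.Lib.Helper17.C3O.B2

set_option autoImplicit false
set_option linter.unusedSectionVars false
set_option linter.unusedVariables false

namespace Cfsg.Agent.Lib.Helper17.C3O

open QuadraticMap Module Cfsg.Agent.Lib.Helper95 Cfsg.Agent.Lib.Helper97.C3
  Cfsg.Agent.Lib.Helper97.OSub
open Cfsg.Agent.Lib.Helper49 hiding glEquiv glEquiv_apply

variable {F K V : Type*} [Field F] [Fintype F] [Field K] [Fintype K] [Algebra F K]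
  [FiniteDimensional F K] [AddCommGroup V] [Module F V] [Module K V] [IsScalarTower F K V]
  [FiniteDimensional K V]
  {QK : QuadraticForm K V} {κ : K →ₗ[F] F} {Q : QuadraticForm F V} {M : Subgroup (OG Q)}

private lemma maxo_finrank (g : OG Q) {x₀ : V} (h0 : x₀ ≠ 0) :
    finrank F ↥((kpt F K x₀).map g.1.toLinearMap) = finrank F K := by
  rw [LinearEquiv.finrank_map_eq, finrank_kpt h0]

private lemma maxo_ts (T : TF QK κ Q) (g : OG Q) {x₀ : V} (hq : QK x₀ = 0) :
    ∀ y ∈ (kpt F K x₀).map g.1.toLinearMap, ∀ z ∈ (kpt F K x₀).map g.1.toLinearMap,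
      polar Q y z = 0 := by
  rintro _ ⟨y, hy, rfl⟩ _ ⟨z, hz, rfl⟩
  obtain ⟨a, rfl⟩ := mem_kpt.1 hy
  obtain ⟨b, rfl⟩ := mem_kpt.1 hz
  change polar Q (g.1 (a • x₀)) (g.1 (b • x₀)) = 0
  rw [OG_polar, T.polar_eq, polar_smul_left, polar_smul_right, polar_self_of_Q hq]
  simp

private lemma maxo_nle {x : V} {g : OG Q} {x₀ : V} (h : Cfg QK M x g x₀) :
    ¬ kpt F K x ≤ (kpt F K x₀).map g.1.toLinearMap := by
  have : FiniteDimensional F V := Module.Finite.trans K V
  intro hle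
  exact h.ne (Submodule.eq_of_le_of_finrank_eq hle
    (by rw [finrank_kpt h.x0, maxo_finrank g h.y0]))

private lemma maxo_lt {x : V} {g : OG Q} {x₀ : V} (h : Cfg QK M x g x₀) :
    finrank F ↥(kpt F K x ⊓ (kpt F K x₀).map g.1.toLinearMap) < finrank F K := by
  have : FiniteDimensional F V := Module.Finite.trans K V
  rw [← finrank_kpt (F := F) (K := K) h.x0]
  apply Submodule.finrank_lt_finrank_of_lt
  refine lt_of_le_of_ne inf_le_left fun h' => maxo_nle h ?_
  rw [← h']; exact inf_le_right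

private lemma maxo_new {x : V} {g : OG Q} {x₀ : V} (h : Cfg QK M x g x₀) {t : OG Q} (ht : t ∈ M)
    (h1 : ((kpt F K x₀).map g.1.toLinearMap).map t.1.toLinearMap ≠
      (kpt F K x₀).map g.1.toLinearMap)
    (h2 : ((kpt F K x₀).map g.1.toLinearMap).map t.1.toLinearMap ⊓
      (kpt F K x₀).map g.1.toLinearMap ≠ ⊥) :
    Cfg QK M x₀ (g⁻¹ * t * g) x₀ ∧
      finrank F ↥(kpt F K x₀ ⊓ (kpt F K x₀).map (g⁻¹ * t * g).1.toLinearMap) =
        finrank F ↥(((kpt F K x₀).map g.1.toLinearMap).map t.1.toLinearMap ⊓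
          (kpt F K x₀).map g.1.toLinearMap) := by
  set P' := (kpt F K x₀).map g.1.toLinearMap with hP'
  have hmap : ((kpt F K x₀).map (g⁻¹ * t * g).1.toLinearMap).map g.1.toLinearMap
      = P'.map t.1.toLinearMap := by
    rw [hP', ← Submodule.map_comp, ← Submodule.map_comp]
    congr 1
    ext v
    simp [mul_assoc]
  have hinf : (kpt F K x₀ ⊓ (kpt F K x₀).map (g⁻¹ * t * g).1.toLinearMap).map g.1.toLinearMap
      = P' ⊓ P'.map t.1.toLinearMap := by
    rw [Submodule.map_inf _ g.1.injective, hmap]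
  have hfin : finrank F ↥(kpt F K x₀ ⊓ (kpt F K x₀).map (g⁻¹ * t * g).1.toLinearMap)
      = finrank F ↥(P'.map t.1.toLinearMap ⊓ P') := by
    rw [inf_comm (P'.map t.1.toLinearMap), ← hinf, LinearEquiv.finrank_map_eq]
  refine ⟨⟨h.y0, h.qy, h.y0, h.qy, M.mul_mem (M.mul_mem (M.inv_mem h.gM) ht) h.gM, ?_, ?_⟩, hfin⟩
  · intro heq
    apply h1
    rw [← hmap, ← heq]
  · intro hb
    apply h2
    rw [inf_comm, ← hinf, hb, Submodule.map_bot]

private lemma maxo_cont {x : V} {g : OG Q} {x₀ : V} (h : Cfg QK M x g x₀)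
    (ih : ∀ x' g' x₀', Cfg QK M x' g' x₀' →
      finrank F ↥(kpt F K x ⊓ (kpt F K x₀).map g.1.toLinearMap) <
        finrank F ↥(kpt F K x' ⊓ (kpt F K x₀').map g'.1.toLinearMap) →
      ∃ x'' g'' x₀'', CloseO QK M x'' g'' x₀'')
    {t : OG Q} (ht : t ∈ M)
    (h1 : ((kpt F K x₀).map g.1.toLinearMap).map t.1.toLinearMap ≠
      (kpt F K x₀).map g.1.toLinearMap)
    (h2 : kpt F K x ⊓ (kpt F K x₀).map g.1.toLinearMap <
      ((kpt F K x₀).map g.1.toLinearMap).map t.1.toLinearMap ⊓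
      (kpt F K x₀).map g.1.toLinearMap) :
    ∃ x'' g'' x₀'', CloseO QK M x'' g'' x₀'' := by
  have : FiniteDimensional F V := Module.Finite.trans K V
  have hne : ((kpt F K x₀).map g.1.toLinearMap).map t.1.toLinearMap ⊓
      (kpt F K x₀).map g.1.toLinearMap ≠ ⊥ := by
    intro hb
    rw [hb] at h2
    exact not_lt_bot h2
  obtain ⟨hc, hf⟩ := maxo_new h ht h1 hne
  exact ih _ _ _ hc (by rw [hf]; exact Submodule.finrank_lt_finrank_of_lt h2)

private lemma maxo_a (T : TF QK κ Q) (hr : (finrank F K).Prime) (hd : 4 ≤ finrank K V)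
    (hM : BigO T M) {x : V} {g : OG Q} {x₀ : V} (h : Cfg QK M x g x₀)
    (ih : ∀ x' g' x₀', Cfg QK M x' g' x₀' →
      finrank F ↥(kpt F K x ⊓ (kpt F K x₀).map g.1.toLinearMap) <
        finrank F ↥(kpt F K x' ⊓ (kpt F K x₀').map g'.1.toLinearMap) →
      ∃ x'' g'' x₀'', CloseO QK M x'' g'' x₀'')
    {y₁ : V} (hy₁ : y₁ ∈ (kpt F K x₀).map g.1.toLinearMap) (h1 : polar QK x y₁ = 0)
    (h1' : y₁ ∉ kpt F K x) :
    ∃ x'' g'' x₀'', CloseO QK M x'' g'' x₀'' := by
  have hfP' := maxo_finrank (F := F) (K := K) g h.y0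
  have hlt := maxo_lt h
  by_cases horth : ∀ y ∈ (kpt F K x₀).map g.1.toLinearMap, polar QK x y = 0
  · by_cases hd1 : finrank F ↥(kpt F K x ⊓ (kpt F K x₀).map g.1.toLinearMap) + 1 = finrank F K
    · exact ⟨x, g, x₀, ⟨h, hd1, horth⟩⟩
    · obtain ⟨t, ht, ht1, ht2⟩ := step_orth T hr hM h.x0 h.qx _ horth h.inf (maxo_nle h)
        (by rw [hfP']; omega)
      exact maxo_cont h ih ht ht1 ht2
  · push Not at horth
    obtain ⟨y₂, hy₂, h2⟩ := horth
    obtain ⟨t, ht, ht1, ht2⟩ := step_mixed T hd hM h.x0 h.qx _ hfP' h.inf hy₁ h1 h1' hy₂ h2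
    exact maxo_cont h ih ht ht1 ht2

private lemma maxo_aux (T : TF QK κ Q) (hr : (finrank F K).Prime) (hK : 3 < Fintype.card K)
    (hd : 4 ≤ finrank K V) (hM : BigO T M) (k : ℕ) :
    ∀ (x : V) (g : OG Q) (x₀ : V), Cfg QK M x g x₀ →
      finrank F K - finrank F ↥(kpt F K x ⊓ (kpt F K x₀).map g.1.toLinearMap) = k →
      ∃ x' g' x₀', CloseO QK M x' g' x₀' := by
  have : FiniteDimensional F V := Module.Finite.trans K V
  induction k using Nat.strong_induction_on with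
  | _ k ih =>
    intro x g x₀ h hk
    have hfP' := maxo_finrank (F := F) (K := K) g h.y0
    have hlt := maxo_lt h
    have ih' : ∀ x' g' x₀', Cfg QK M x' g' x₀' →
        finrank F ↥(kpt F K x ⊓ (kpt F K x₀).map g.1.toLinearMap) <
          finrank F ↥(kpt F K x' ⊓ (kpt F K x₀').map g'.1.toLinearMap) →
        ∃ x'' g'' x₀'', CloseO QK M x'' g'' x₀'' := by
      intro x' g' x₀' h' hlt'
      have := maxo_lt h'
      exact ih _ (by omega) x' g' x₀' h' rfl
    by_cases ha : ∃ y₁ ∈ (kpt F K x₀).map g.1.toLinearMap, polar QK x y₁ = 0 ∧ y₁ ∉ kpt F K x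
    · obtain ⟨y₁, hy₁, h1, h1'⟩ := ha
      exact maxo_a T hr hd hM h ih' hy₁ h1 h1'
    · push Not at ha
      obtain ⟨y₁, hy₁, hy₁'⟩ : ∃ y₁ ∈ (kpt F K x₀).map g.1.toLinearMap, y₁ ∉ kpt F K x := by
        by_contra hcon
        push Not at hcon
        exact h.ne (Submodule.eq_of_le_of_finrank_eq hcon
          (by rw [hfP', finrank_kpt h.x0])).symm
      by_cases hH : ∀ y ∈ (kpt F K x₀).map g.1.toLinearMap, y ∈ Submodule.span K {x, y₁}
      · have hb1 : polar QK x y₁ ≠ 0 := fun h0 => hy₁' (ha y₁ hy₁ h0)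
        obtain ⟨t, ht, ht1, ht2, y, hy, hyP, hyo⟩ :=
          step_hyp T hd hM h.x0 h.qx _ (maxo_ts T g h.qy) h.inf hy₁ hb1 hH
        have hne : ((kpt F K x₀).map g.1.toLinearMap).map t.1.toLinearMap ⊓
            (kpt F K x₀).map g.1.toLinearMap ≠ ⊥ := by
          intro hb
          rw [hb] at ht2
          exact h.inf (le_bot_iff.1 ht2)
        obtain ⟨hc, hf⟩ := maxo_new h ht ht1 hne
        have hle := Submodule.finrank_mono ht2
        rcases hle.lt_or_eq with hlt2 | heq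
        · exact ih' _ _ _ hc (by rw [hf]; exact hlt2)
        · have ih'' : ∀ x' g' x₀', Cfg QK M x' g' x₀' →
              finrank F ↥(kpt F K x₀ ⊓ (kpt F K x₀).map (g⁻¹ * t * g).1.toLinearMap) <
                finrank F ↥(kpt F K x' ⊓ (kpt F K x₀').map g'.1.toLinearMap) →
              ∃ x'' g'' x₀'', CloseO QK M x'' g'' x₀'' := by
            intro x' g' x₀' h' hlt'
            exact ih' x' g' x₀' h' (by rw [heq, ← hf]; exact hlt')
          refine maxo_a T hr hd hM hc ih'' (y₁ := (g⁻¹).1 y) ?_ ?_ ?_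
          · obtain ⟨p, hp, rfl⟩ := hy
            obtain ⟨q, hq, rfl⟩ := hp
            exact ⟨q, hq, rfl⟩
          · apply T.polarK_eq_zero
            intro l
            rw [← OG_polar Q g, OG_apply_inv_apply, polar_comm]
            exact hyo _ ⟨l • x₀, smul_mem_kpt l x₀, rfl⟩
          · intro hmem
            apply hyP
            exact ⟨(g⁻¹).1 y, hmem, OG_apply_inv_apply g y⟩
      · push Not at hH
        obtain ⟨y₂, hy₂, h2⟩ := hH
        obtain ⟨t, ht, ht1, ht2⟩ := step_rot T hK hd hM h.x0 h.qx _ ha hy₁ hy₁' hy₂ h2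
        exact maxo_cont h ih' ht ht1 ht2

theorem exists_closeO (T : TF QK κ Q) (hr : (finrank F K).Prime) (hK : 3 < Fintype.card K)
    (hd : 4 ≤ finrank K V) (hM : BigO T M) {x : V} {g : OG Q} {x₀ : V} (h : Cfg QK M x g x₀) :
    ∃ x' g' x₀', CloseO QK M x' g' x₀' :=
  maxo_aux T hr hK hd hM _ x g x₀ h rfl

end Cfsg.Agent.Lib.Helper17.C3O
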